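import Mathlib
import Cfsg.Agent.H58.BG10Defs3

set_option autoImplicit false

/-!
# Bender–Glauberman Corollary 12.9 (S1420): the statement and its pieces as `Prop`s (helper57)
-/

namespace Cfsg.Agent.H57.BG12

open Cfsg Subgroup Cfsg.Agent.H58.BG10

universe u

/-- S1420, first conjunct: nilpotent `σ(M)'`-subgroups of `M` are abelian. -/
def St1420a (G : Type u) [Group G] : Prop :=
  ∀ (M : Subgroup G), IsCoatom M → ∀ N : Subgroup G, N ≤ M → Group.IsNilpotent N →
    (∀ p : ℕ, p.Prime → p ∣ Nat.card N → p ∉ sigma M) → IsMulCommutative N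

/-- S1420, second conjunct: `E'` is abelian. -/
def St1420b (G : Type u) [Group G] : Prop :=
  ∀ (M : Subgroup G), IsCoatom M → ∀ E : Subgroup G, IsComplIn E (sigmaCore M) M →
    IsMulCommutative ↥⁅E, E⁆

/-- S1420, third conjunct: `N_G(P) ≤ M` for noncyclic `p`-subgroups `P ≤ M`, `p ∈ σ(M)`. -/
def St1420c (G : Type u) [Group G] : Prop :=
  ∀ (M : Subgroup G), IsCoatom M → ∀ (p : ℕ) (P : Subgroup G), p ∈ sigma M → IsPGroup p P →
    P ≤ M → ¬ IsCyclic P → normalizer (P : Set G) ≤ M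

/-- S1420, fourth conjunct (with the complement `E` as a hypothesis): uniqueness for the
centralizers of `τ₂(M)`-elements of `M̂_σ`. -/
def St1420d (G : Type u) [Group G] : Prop :=
  ∀ (M : Subgroup G), IsCoatom M → ∀ E : Subgroup G, IsComplIn E (sigmaCore M) M →
    ∀ x ∈ M, x ≠ 1 → (∀ p : ℕ, p.Prime → p ∣ orderOf x → p ∈ tau2 M) → x ∈ sigmaHat M →
      centralizer ({x} : Set G) ≤ M ∧
        ∀ L : Subgroup G, IsCoatom L → centralizer ({x} : Set G) ≤ L → L = M

/-- S1420 (B&G Corollary 12.9). -/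
def St1420 (G : Type u) [Group G] : Prop :=
  ∀ (M : Subgroup G), IsCoatom M → ∀ E : Subgroup G, IsComplIn E (sigmaCore M) M →
    (∀ N : Subgroup G, N ≤ M → Group.IsNilpotent N →
        (∀ p : ℕ, p.Prime → p ∣ Nat.card N → p ∉ sigma M) → IsMulCommutative N) ∧
      IsMulCommutative ↥⁅E, E⁆ ∧
      (∀ (p : ℕ) (P : Subgroup G), p ∈ sigma M → IsPGroup p P → P ≤ M → ¬ IsCyclic P →
        normalizer (P : Set G) ≤ M) ∧
      ∀ x ∈ M, x ≠ 1 → (∀ p : ℕ, p.Prime → p ∣ orderOf x → p ∈ tau2 M) → x ∈ sigmaHat M →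
        centralizer ({x} : Set G) ≤ M ∧
          ∀ L : Subgroup G, IsCoatom L → centralizer ({x} : Set G) ≤ L → L = M

/-- Hall: every `σ(M)'`-subgroup of `M` is `M`-conjugate into a given complement of `M_σ`. -/
def StSigConj (G : Type u) [Group G] : Prop :=
  ∀ (M : Subgroup G), IsCoatom M → ∀ E : Subgroup G, IsComplIn E (sigmaCore M) M →
    ∀ Y : Subgroup G, Y ≤ M → (∀ p : ℕ, p.Prime → p ∣ Nat.card Y → p ∉ sigma M) →
      ∃ g ∈ M, Y.map (MulAut.conj g).toMonoidHom ≤ E

/-- An element of odd order all of whose prime divisors exceed `s` centralizes every subgroup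
of order `s ^ 2` that it normalizes. -/
def StAct (G : Type u) [Group G] : Prop :=
  ∀ (s : ℕ) [Fact s.Prime], s ≠ 2 → ∀ B : Subgroup G, Nat.card B = s ^ 2 →
    ∀ y ∈ normalizer (B : Set G), Odd (orderOf y) →
      (∀ r : ℕ, r.Prime → r ∣ orderOf y → s < r) → ∀ b ∈ B, y * b = b * y

/-- Assembly of S1420 from its four conjuncts. -/
theorem bg129 {G : Type u} [Group G] (ha : St1420a G) (hb : St1420b G) (hc : St1420c G)
    (hd : St1420d G) : St1420 G :=
  fun M hM E hE => ⟨ha M hM, hb M hM E hE, hc M hM, hd M hM E hE⟩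

end Cfsg.Agent.H57.BG12
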