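import Mathlib
import Cfsg.Agent.H58.BG10Defs3

set_option autoImplicit false

/-!
# Bender–Glauberman Lemma 12.18 (S1427): the statement and its pieces as `Prop`s (helper57)

A cyclic Sylow `p`-subgroup `S` of a complement `E` of `M_σ` acts on `M_σ` in a prime manner:
`C_{M_σ}(x) = C_{M_σ}(S)` for all `x ∈ S`, `x ≠ 1`.
-/

namespace Cfsg.Agent.H57.BG1218

open Cfsg Subgroup Cfsg.Agent.H58.BG10

universe u

/-- S1427 (B&G Lemma 12.18 for a cyclic Sylow subgroup of `E`). -/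
def St1427 (G : Type u) [Group G] : Prop :=
  ∀ (M : Subgroup G), IsCoatom M → ∀ E : Subgroup G, IsComplIn E (sigmaCore M) M →
    ∀ (p : ℕ) [Fact p.Prime] (S : Sylow p E), (S : Subgroup E) ≠ ⊥ →
    IsCyclic (S : Subgroup E) →
    ∀ x ∈ (S : Subgroup E).map E.subtype, x ≠ 1 →
      sigmaCore M ⊓ centralizer ({x} : Set G) =
        sigmaCore M ⊓
          centralizer (((S : Subgroup E).map E.subtype : Subgroup G) : Set G)

/-- (KEY) `p ∉ σ(M)`, `M` of `p`-rank `1`, `S ≤ M` a cyclic `p`-subgroup, `X ≤ S` of order `p`: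
`C_{M_σ}(X) ≤ C_G(S)`. -/
def StKey (G : Type u) [Group G] : Prop :=
  ∀ (M : Subgroup G), IsCoatom M → ∀ (p : ℕ) [Fact p.Prime], p ∉ sigma M → PRankLE p 1 M →
    ∀ S X : Subgroup G, S ≤ M → IsPGroup p S → IsCyclic S → X ≤ S → Nat.card X = p →
      sigmaCore M ⊓ centralizer (X : Set G) ≤ centralizer (S : Set G)

/-- (COAT) `p ∉ σ(M)`, `M` of `p`-rank `1`, `X` of order `p`: some maximal subgroup `H` contains
`N_G(X)`, and no such `H` is conjugate to `M`. -/
def StCoat (G : Type u) [Group G] : Prop :=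
  ∀ (M : Subgroup G), IsCoatom M → ∀ (p : ℕ) [Fact p.Prime], p ∉ sigma M → PRankLE p 1 M →
    ∀ X : Subgroup G, Nat.card X = p →
      ∃ H : Subgroup G, IsCoatom H ∧ normalizer (X : Set G) ≤ H ∧
        ∀ g : G, H ≠ M.map (MulAut.conj g).toMonoidHom

/-- (CASE1) `H` not conjugate to `M`, `p ∈ σ(H)`: a `p`-subgroup `S` of `H` centralizes every
`q`-subgroup (`q ≠ p`) of `M_σ ∩ H` that it normalizes. -/
def StCase1 (G : Type u) [Group G] : Prop :=
  ∀ (M H : Subgroup G), IsCoatom M → IsCoatom H →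
    (∀ g : G, H ≠ M.map (MulAut.conj g).toMonoidHom) →
    ∀ (p : ℕ) [Fact p.Prime], p ∈ sigma H → ∀ S : Subgroup G, S ≤ H → IsPGroup p S →
    ∀ (q : ℕ) [Fact q.Prime], q ≠ p → ∀ Q : Subgroup G, Q ≤ sigmaCore M → Q ≤ H →
      IsPGroup q Q → S ≤ normalizer (Q : Set G) → Q ≤ centralizer (S : Set G)

/-- (NILCONJ) If `H_σ` is nilpotent and `σ(M) ∩ σ(H) ≠ ∅` then `H` is conjugate to `M`. -/
def StNilConj (G : Type u) [Group G] : Prop :=
  ∀ (M H : Subgroup G), IsCoatom M → IsCoatom H → Group.IsNilpotent (sigmaCore H) →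
    ∀ (q : ℕ) [Fact q.Prime], q ∈ sigma M → q ∈ sigma H →
      ∃ g : G, H = M.map (MulAut.conj g).toMonoidHom

/-- (SYLN) B&G 12.8: `p ∈ τ₂(H)`, `A ≤ H` elementary abelian of order `p²`, `P ≥ A` a
commutative Sylow `p`-subgroup of `G`: `N_G(A) ≤ N_G(P)`. -/
def StSylN (G : Type u) [Group G] : Prop :=
  ∀ (H : Subgroup G), IsCoatom H → ∀ (p : ℕ) [Fact p.Prime], p ∈ tau2 H →
    ∀ A : Subgroup G, A ≤ H → IsElementaryAbelian p A → Nat.card A = p ^ 2 →
    ∀ P : Sylow p G, A ≤ (P : Subgroup G) → IsMulCommutative (P : Subgroup G) →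
      normalizer (A : Set G) ≤ normalizer ((P : Subgroup G) : Set G)

/-- (SYLH) `p ∈ τ₂(H)` and the Sylow `p`-subgroups of `G` commutative: every `p`-subgroup `S` of
`H` lies in a Sylow `p`-subgroup `P ≤ H` of `G` with `H_σ P` normal in `H`. -/
def StSylH (G : Type u) [Group G] : Prop :=
  ∀ (H : Subgroup G), IsCoatom H → ∀ (p : ℕ) [Fact p.Prime], p ∈ tau2 H →
    (∃ P : Sylow p G, IsMulCommutative (P : Subgroup G)) →
    ∀ S : Subgroup G, S ≤ H → IsPGroup p S →
      ∃ P : Sylow p G, S ≤ (P : Subgroup G) ∧ (P : Subgroup G) ≤ H ∧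
        H ≤ normalizer ((sigmaCore H ⊔ (P : Subgroup G) : Subgroup G) : Set G)

/-- (NAB) `p ∈ τ₂(H)` and the Sylow `p`-subgroups of `G` noncommutative: a cyclic `p`-group `S`
whose subgroup `X` of order `p` has `C_G(X) ≤ H` is `X` itself. -/
def StCase2Nab (G : Type u) [Group G] : Prop :=
  ∀ (H : Subgroup G), IsCoatom H → ∀ (p : ℕ) [Fact p.Prime], p ∈ tau2 H →
    (∀ P : Sylow p G, ¬ IsMulCommutative (P : Subgroup G)) →
    ∀ S X : Subgroup G, IsPGroup p S → IsCyclic S → X ≤ S → Nat.card X = p →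
      centralizer (X : Set G) ≤ H → S = X

/-- (GEN) Coprime action: a `p`-group `S` normalizing a `p'`-group `C` centralizes `C` as soon
as it centralizes every `S`-invariant subgroup of prime power order of `C`. -/
def StInvGen (G : Type u) [Group G] : Prop :=
  ∀ (p : ℕ) [Fact p.Prime] (S C : Subgroup G), IsPGroup p S → S ≤ normalizer (C : Set G) →
    ¬ p ∣ Nat.card C →
    (∀ (q : ℕ) [Fact q.Prime] (Q : Subgroup G), Q ≤ C → IsPGroup q Q →
      S ≤ normalizer (Q : Set G) → Q ≤ centralizer (S : Set G)) →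
    C ≤ centralizer (S : Set G)

end Cfsg.Agent.H57.BG1218
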