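import Mathlib
import Cfsg.Agent.H58.BG10Defs3
import Cfsg.Agent.H51.BG10E
import Cfsg.Agent.Lib.Helper30.PiCore

set_option autoImplicit false

/-!
# Bender–Glauberman Corollary 12.6 (S1418) from Proposition 12.4 (S1416) and Theorem 12.5 (S1417)
-/

namespace Cfsg.Agent.H57.BG12

open Cfsg Subgroup Cfsg.Agent.H58.BG10
open scoped Pointwise

universe u

variable {G : Type u} [Group G]

/-- `M_σ ≤ M`. -/
theorem sigmaCore_le_self (M : Subgroup G) : sigmaCore M ≤ M :=
  Cfsg.Agent.Lib.Helper30.piCoreOf_le (sigma M) M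

/-- `M` normalizes `M_σ`. -/
theorem le_normalizer_sigmaCore (M : Subgroup G) : M ≤ normalizer (sigmaCore M : Set G) :=
  Cfsg.Agent.Lib.Helper30.le_normalizer_piCoreOf (sigma M) M

/-- A proper subgroup of a finite group lies in a maximal subgroup. -/
theorem exists_coatom_ge [Finite G] {K : Subgroup G} (hK : K ≠ ⊤) :
    ∃ L : Subgroup G, IsCoatom L ∧ K ≤ L :=
  (eq_top_or_exists_le_coatom K).resolve_left hK

/-- In a minimal simple group of odd order, the centralizer of a nontrivial proper subgroup is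
proper. -/
theorem centralizer_ne_top (hG : IsMinSimpleOddOrder G) {X : Subgroup G} (h1 : X ≠ ⊥)
    (h2 : X ≠ ⊤) : centralizer (X : Set G) ≠ ⊤ := fun h =>
  Cfsg.Agent.H51.BG10.normalizer_ne_top_of_ne hG h1 h2
    (top_le_iff.mp (h ▸ centralizer_le_normalizer (X : Set G)))

/-- A `p`-subgroup of `G` contained in `M` lies in (the image of) a Sylow `p`-subgroup of `M`. -/
theorem exists_sylow_map_ge {p : ℕ} {M Y : Subgroup G} (hY : IsPGroup p Y) (hYM : Y ≤ M) :
    ∃ P : Sylow p M, Y ≤ (P : Subgroup M).map M.subtype := by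
  obtain ⟨P, hP⟩ := (hY.comap_subtype (K := M)).exists_le_sylow
  refine ⟨P, ?_⟩
  intro y hy
  exact ⟨⟨y, hYM hy⟩, hP (show (⟨y, hYM hy⟩ : M) ∈ Y.comap M.subtype from hy), rfl⟩

/-- A subgroup of prime order `p` is a `p`-group. -/
theorem isPGroup_of_card_eq {p : ℕ} [Fact p.Prime] {X : Subgroup G} (hX : Nat.card X = p) :
    IsPGroup p X :=
  IsPGroup.of_card (n := 1) (by rw [hX, pow_one])

/-- An elementary abelian `p`-subgroup is a `p`-group. -/
theorem isPGroup_of_elementary {p : ℕ} {A : Subgroup G} (hA : IsElementaryAbelian p A) :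
    IsPGroup p A := fun a => ⟨1, by rw [pow_one]; exact Subtype.ext (hA.2 a a.2)⟩

/-- B&G Corollary 12.6 (the statement S1418) from Proposition 12.4 and Theorem 12.5. -/
theorem bg126 [Finite G] (hG : IsMinSimpleOddOrder G) (h16 : St1416 G) (h17 : St1417 G) :
    St1418 G := by
  intro M hM E hE p _ hp A hA
  obtain ⟨hAE, hAel, hAcard⟩ := hA
  obtain ⟨hEM, hσM, hEσ, hprod⟩ := hE
  have hAM : A ≤ M := hAE.trans hEM
  have hCA : centralizer (A : Set G) ≤ M := (h16 M hM p A ⟨hAM, hAel, hAcard⟩).1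
  obtain ⟨_, hSyl, hnorm, hcent, hstar, _⟩ := h17 M hM p hp A ⟨hAM, hAel, hAcard⟩
  have hMnorm : M ≤ normalizer (sigmaCore M : Set G) := le_normalizer_sigmaCore M
  have hpP : p.Prime := Fact.out
  have hAp : IsPGroup p A := isPGroup_of_elementary hAel
  -- conjugation by `E` preserves `A`
  have key1 : ∀ e ∈ E, ∀ a ∈ A, e * a * e⁻¹ ∈ A := by
    intro e he a ha
    have hmem : e * a * e⁻¹ ∈ sigmaCore M ⊔ A :=
      (mem_normalizer_iff.mp (hnorm (hEM he)) a).mp (mem_sup_right ha)
    have hcoe : ((sigmaCore M ⊔ A : Subgroup G) : Set G) = (sigmaCore M : Set G) * (A : Set G) :=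
      coe_mul_of_right_le_normalizer_left (sigmaCore M) A (hAM.trans hMnorm)
    have hmem' : e * a * e⁻¹ ∈ (sigmaCore M : Set G) * (A : Set G) := by
      rw [← hcoe]; exact hmem
    obtain ⟨s, hs, a', ha', hsa⟩ := Set.mem_mul.mp hmem'
    have hsE : s ∈ E := by
      have h1 : s = e * a * e⁻¹ * a'⁻¹ := by rw [← hsa]; group
      rw [h1]
      exact E.mul_mem (E.mul_mem (E.mul_mem he (hAE ha)) (E.inv_mem he)) (E.inv_mem (hAE ha'))
    have hs1 : s = 1 := by
      have h1 : s ∈ E ⊓ sigmaCore M := ⟨hsE, hs⟩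
      rw [hEσ] at h1
      exact mem_bot.mp h1
    rw [← hsa, hs1, one_mul]; exact ha'
  have hEN : E ≤ normalizer (A : Set G) := le_normalizer_iff.mpr key1
  have sylow_fact : ∀ P : Sylow p M, A ≤ (P : Subgroup M).map M.subtype →
      (∀ x ∈ (P : Subgroup M).map M.subtype, x ^ p = 1 ↔ x ∈ A) ∧
        ¬ normalizer ((((P : Subgroup M).map M.subtype : Subgroup G)) : Set G) ≤ M :=
    fun P h => (hSyl P).2 h
  -- (1b)
  have h1b : ∀ X : Subgroup G, X ≤ E → Nat.card X = p → X ≤ A := by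
    intro X hXE hXcard
    have hXp : IsPGroup p X := isPGroup_of_card_eq hXcard
    have hAX : IsPGroup p (A ⊔ X : Subgroup G) :=
      IsPGroup.to_sup_of_normal_left' hAp hXp (hXE.trans hEN)
    have hAXM : A ⊔ X ≤ M := sup_le hAM (hXE.trans hEM)
    obtain ⟨P, hP⟩ := exists_sylow_map_ge hAX hAXM
    have hAP : A ≤ (P : Subgroup M).map M.subtype := le_sup_left.trans hP
    have hXP : X ≤ (P : Subgroup M).map M.subtype := le_sup_right.trans hP
    intro x hx
    have hxp : x ^ p = 1 := by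
      have h1 : (⟨x, hx⟩ : X) ^ Nat.card X = 1 := pow_card_eq_one'
      rw [hXcard] at h1
      exact congrArg Subtype.val h1
    exact ((sylow_fact P hAP).1 x (hXP hx)).mp hxp
  -- (2)
  have h2a : centralizer (A : Set G) ≤ M ⊓ normalizer (A : Set G) :=
    le_inf hCA (centralizer_le_normalizer _)
  have h2b : M ⊓ normalizer (A : Set G) = E := by
    apply le_antisymm
    · rintro m ⟨hmM, hmN⟩
      obtain ⟨e, he, s, hs, rfl⟩ := hprod m hmM
      have hsN : s ∈ normalizer (A : Set G) := by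
        have h1 : s = e⁻¹ * (e * s) := by group
        rw [h1]
        exact (normalizer (A : Set G)).mul_mem ((normalizer (A : Set G)).inv_mem (hEN he)) hmN
      have hsC : s ∈ centralizer (A : Set G) := by
        rw [mem_centralizer_iff]
        intro a ha
        have h1 : s * a * s⁻¹ ∈ A := (mem_normalizer_iff.mp hsN a).mp ha
        have h2 : s * a * s⁻¹ * a⁻¹ ∈ A := A.mul_mem h1 (A.inv_mem ha)
        have h3 : a * s⁻¹ * a⁻¹ ∈ sigmaCore M :=
          (mem_normalizer_iff.mp (hMnorm (hAM ha)) s⁻¹).mp ((sigmaCore M).inv_mem hs)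
        have h4 : s * a * s⁻¹ * a⁻¹ ∈ sigmaCore M := by
          have h5 : s * a * s⁻¹ * a⁻¹ = s * (a * s⁻¹ * a⁻¹) := by group
          rw [h5]; exact (sigmaCore M).mul_mem hs h3
        have h5 : s * a * s⁻¹ * a⁻¹ = 1 := by
          have h6 : s * a * s⁻¹ * a⁻¹ ∈ E ⊓ sigmaCore M := ⟨hAE h2, h4⟩
          rw [hEσ] at h6; exact mem_bot.mp h6
        calc a * s = (s * a * s⁻¹ * a⁻¹)⁻¹ * (s * a) := by group
          _ = s * a := by rw [h5, inv_one, one_mul]
      have hs1 : s = 1 := by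
        have h1 : s ∈ sigmaCore M ⊓ centralizer (A : Set G) := ⟨hs, hsC⟩
        rw [hcent] at h1; exact mem_bot.mp h1
      rw [hs1, mul_one]; exact he
    · exact le_inf hEM hEN
  have h2c : ¬ normalizer (A : Set G) ≤ M := by
    intro hNM
    obtain ⟨P, hAP⟩ := exists_sylow_map_ge hAp hAM
    obtain ⟨hΩ, hnot⟩ := sylow_fact P hAP
    apply hnot
    refine le_trans ?_ hNM
    refine le_normalizer_iff.mpr ?_
    intro g hg a ha
    have h1 : g * a * g⁻¹ ∈ (P : Subgroup M).map M.subtype :=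
      (mem_normalizer_iff.mp hg a).mp (hAP ha)
    refine (hΩ _ h1).mp ?_
    rw [conj_pow, hAel.2 a ha, mul_one, mul_inv_cancel]
  -- (3)
  have h3 : ∀ X : Subgroup G, X ≤ A → Nat.card X = p →
      sigmaCore M ⊓ centralizer (X : Set G) ≠ ⊥ →
      (centralizer (X : Set G) ≤ M ∧
        ∀ L : Subgroup G, IsCoatom L → centralizer (X : Set G) ≤ L → L = M) := by
    intro X hXA hXcard hne
    have hAC : A ≤ centralizer (X : Set G) := by
      intro a ha
      rw [mem_centralizer_iff]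
      intro x hx
      have := hAel.1
      have h1 := mul_comm' (⟨x, hXA hx⟩ : A) ⟨a, ha⟩
      exact congrArg Subtype.val h1
    have huniq : ∀ L : Subgroup G, IsCoatom L → centralizer (X : Set G) ≤ L → L = M := by
      intro L hL hCL
      by_contra hLM
      have h1 := hstar L hL hLM (hAC.trans hCL)
      apply hne
      rw [eq_bot_iff, ← h1]
      exact inf_le_inf_left _ hCL
    refine ⟨?_, huniq⟩
    have hX1 : X ≠ ⊥ := by
      intro h
      rw [h, Subgroup.card_bot] at hXcard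
      exact hpP.ne_one hXcard.symm
    have hXtop : X ≠ ⊤ := by
      intro h
      exact hM.1 (top_le_iff.mp (h ▸ (hXA.trans hAM)))
    obtain ⟨L, hL, hCL⟩ := exists_coatom_ge (centralizer_ne_top hG hX1 hXtop)
    have h1 := huniq L hL hCL
    rw [h1] at hCL
    exact hCL
  exact ⟨⟨hEN, h1b⟩, ⟨h2a, h2b, h2c⟩, h3⟩

end Cfsg.Agent.H57.BG12
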