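import Cfsg.Agent.H57.BG129Defs
import Cfsg.Agent.H1.Hall
import Cfsg.Agent.H73.BG129B

/-!
# S1420 piece HALL (by helper67; copy by helper57 with a collision-free import closure)

Every `σ(M)'`-subgroup of a maximal subgroup `M` of a minimal simple group of odd order is
`M`-conjugate into a given complement `E` of `M_σ` (Hall's theorems in the solvable group `M`).
-/

set_option autoImplicit false
set_option linter.unusedSectionVars false
set_option linter.unusedVariables false
set_option linter.style.haveILetI false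

namespace Cfsg.Agent.H57.BG12Hall

open Cfsg Subgroup Cfsg.Agent.H58.BG10 Cfsg.Agent.H57.BG12
open scoped Pointwise

universe u

variable {G : Type u} [Group G] [Finite G]

theorem card_subgroupOf_le {H K : Subgroup G} (h : H ≤ K) :
    Nat.card (H.subgroupOf K) = Nat.card H :=
  Nat.card_congr (Subgroup.subgroupOfEquivOfLe h).toEquiv

theorem sigConj (hG : IsMinSimpleOddOrder G) (h50 : St1350 G) : StSigConj G := by
  intro M hM E hE Y hY hYp
  classical
  obtain ⟨hHall, -, -⟩ := h50 M hM
  obtain ⟨hσle, hσpi, hσidx⟩ := hHall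
  have hEM : E ≤ M := hE.1
  have hcard : Nat.card M = Nat.card E * Nat.card (sigmaCore M) :=
    Cfsg.Agent.H73.BG12.card_mul_card_of_isComplIn hE
  haveI : Group.IsSolvable M := hG.2.2.2 M hM.1
  have hrel : (sigmaCore M).relIndex M = Nat.card E := by
    have h1 : Nat.card (sigmaCore M) * (sigmaCore M).relIndex M = Nat.card M := by
      have := Subgroup.card_mul_index ((sigmaCore M).subgroupOf M)
      rw [card_subgroupOf_le hσle] at this
      exact this
    rw [hcard, mul_comm] at h1
    exact Nat.eq_of_mul_eq_mul_right Nat.card_pos h1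
  have hcop : (Nat.card E).Coprime (Nat.card (sigmaCore M)) := by
    apply Nat.coprime_of_dvd
    intro p hp hpE hpσ
    exact hσidx p hp (hσpi p hp hpσ) (by rw [hrel]; exact hpE)
  have hcopY : (Nat.card (Y.subgroupOf M)).Coprime (Nat.card (sigmaCore M)) := by
    rw [card_subgroupOf_le hY]
    apply Nat.coprime_of_dvd
    intro p hp hpY hpσ
    exact hYp p hp hpY (hσpi p hp hpσ)
  obtain ⟨H, hHcard, hYH⟩ := Cfsg.Agent.H1.hall_le (G := M) (Nat.card E)
    (Nat.card (sigmaCore M)) hcard hcop (Y.subgroupOf M) hcopY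
  obtain ⟨g, hg⟩ := Cfsg.Agent.H1.hall_conj (G := M) (Nat.card E)
    (Nat.card (sigmaCore M)) hcard hcop H (E.subgroupOf M) hHcard
    (card_subgroupOf_le hEM)
  refine ⟨(g : G), g.2, ?_⟩
  rintro x ⟨y, hy, rfl⟩
  have h1 : (⟨y, hY hy⟩ : M) ∈ H := hYH (Subgroup.mem_subgroupOf.mpr hy)
  have h2 : g * (⟨y, hY hy⟩ : M) * g⁻¹ ∈ MulAut.conj g • H :=
    ⟨⟨y, hY hy⟩, h1, rfl⟩
  rw [hg] at h2
  exact Subgroup.mem_subgroupOf.mp h2

example (hG : IsMinSimpleOddOrder G) (h50 : St1350 G) : Cfsg.Agent.H57.BG12.StSigConj G :=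
  sigConj hG h50

end Cfsg.Agent.H57.BG12Hall
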