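import Mathlib
import Cfsg.Agent.H57.BG129Defs
import Cfsg.Agent.H57.BG126
import Cfsg.Agent.H67.BG129ACT
import Cfsg.Agent.H57.BG129Hall
import Cfsg.Agent.H73.BG129A
import Cfsg.Agent.H73.BG129B
import Cfsg.Agent.Lib.Helper30.BG129C
import Cfsg.Agent.Lib.Helper30.BG129D
import Cfsg.Agent.H58.BG10All2
import Cfsg.Agent.H76.BG10x

set_option autoImplicit false

/-!
# Bender–Glauberman Corollaries 12.6 and 12.9 (S1418, S1420) from S1416 and S1417 (helper57)

Assembly of the S1420 team project: pieces by helper67 (ACT, HALL), helper73 (A, B),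
helper30 (C, D).
-/

namespace Cfsg.Agent.H57.BG12

open Cfsg Subgroup Cfsg.Agent.H58.BG10

universe u

variable {G : Type u} [Group G] [Finite G]

/-- S1418 (B&G Corollary 12.6) from S1416 and S1417. -/
theorem st1418_of (hG : IsMinSimpleOddOrder G) (h16 : St1416 G) (h17 : St1417 G) : St1418 G :=
  bg126 hG h16 h17

/-- S1420 (B&G Corollary 12.9) from S1416 and S1417. -/
theorem st1420_of (hG : IsMinSimpleOddOrder G) (h16 : St1416 G) (h17 : St1417 G) : St1420 G := by
  have h50 : St1350 G := st1350 hG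
  have h03 : St1403 G := st1403 hG
  have h04 : St1404 G := st1404 hG
  have h15 : St1415 G := Cfsg.Agent.H76.BG10.bg109 hG (st1405 hG)
  have h18 : St1418 G := bg126 hG h16 h17
  have hact : StAct G := Cfsg.Agent.H67.BG12.act
  have hconj : StSigConj G := Cfsg.Agent.H57.BG12Hall.sigConj hG h50
  have ha : St1420a G := Cfsg.Agent.H73.BG12.bg129a hG h03 h17
  have hb : St1420b G := Cfsg.Agent.H73.BG12.bg129b hG h50 h15 ha
  have hc : St1420c G := Cfsg.Agent.Lib.Helper30.BG12.bg129c hG h04 h16
  have hd : St1420d G := Cfsg.Agent.Lib.Helper30.BG12.bg129d hG h17 h18 hconj hact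
  exact bg129 ha hb hc hd

end Cfsg.Agent.H57.BG12
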