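import Mathlib

set_option autoImplicit false

namespace Cfsg.Agent.H57.Jc

variable {G : Type*} [Group G] [Finite G]

/-- Piece S2946-CENW: if `Q` is normal of index 3 in `K`, `W` is a four-group normalized but not
centralized by `K` and centralized by `Q`, then the centralizer in `K` of any nontrivial element
of `W` lies in `Q`. -/
theorem cent_w {K Q W : Subgroup G} (hQK : Q ≤ K) (hn : K ≤ Subgroup.normalizer (Q : Set G))
    (hidx : Q.relIndex K = 3) (hcard : Nat.card ↥W = 4) (hexp : ∀ w ∈ W, w * w = 1)
    (hQW : ∀ q ∈ Q, ∀ w ∈ W, q * w = w * q) (hKW : ∀ k ∈ K, ∀ w ∈ W, k * w * k⁻¹ ∈ W)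
    (hnc : ¬ K ≤ Subgroup.centralizer (W : Set G)) :
    ∀ w ∈ W, w ≠ 1 → ∀ k ∈ K, k * w = w * k → k ∈ Q := by
  intro w hw hw1 k hk hkw
  by_contra hkQ
  set C : Subgroup G := K ⊓ Subgroup.centralizer ({w} : Set G) with hC
  have hQC : Q ≤ C := by
    intro q hq
    refine ⟨hQK hq, Subgroup.mem_centralizer_iff.2 ?_⟩
    intro h hh
    rw [Set.mem_singleton_iff] at hh
    subst hh
    exact (hQW q hq h hw).symm
  have hCK : C ≤ K := inf_le_left
  have hmul := Subgroup.relIndex_mul_relIndex Q C K hQC hCK
  rw [hidx] at hmul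
  have hkC : k ∈ C := ⟨hk, Subgroup.mem_centralizer_iff.2 <| by
    intro h hh
    rw [Set.mem_singleton_iff] at hh
    subst hh
    exact hkw.symm⟩
  have h1 : Q.relIndex C ≠ 1 := by
    intro h
    rw [Subgroup.relIndex_eq_one] at h
    exact hkQ (h hkC)
  have h2 : C.relIndex K = 1 := by
    have hd : Q.relIndex C ∣ 3 := Dvd.intro _ hmul
    have h3 : Q.relIndex C = 1 ∨ Q.relIndex C = 3 := (Nat.dvd_prime Nat.prime_three).1 hd
    rcases h3 with h | h
    · exact absurd h h1
    · rw [h] at hmul; omega
  rw [Subgroup.relIndex_eq_one] at h2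
  -- `K` centralizes `w`
  have hKw : ∀ k' ∈ K, k' * w = w * k' := by
    intro k' hk'
    have h3 := Subgroup.mem_centralizer_iff.1 (h2 hk').2
    exact (h3 w rfl).symm
  -- cubes of elements of `K` lie in `Q`
  have hcube : ∀ k' ∈ K, k' ^ 3 ∈ Q := by
    intro k' hk'
    haveI : (Q.subgroupOf K).Normal :=
      (Subgroup.normal_subgroupOf_iff_le_normalizer hQK).2 hn
    have h3 := Subgroup.pow_index_mem (Q.subgroupOf K) (⟨k', hk'⟩ : K)
    rw [show (Q.subgroupOf K).index = 3 from hidx] at h3
    simpa [Subgroup.mem_subgroupOf] using h3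
  -- the subgroup `{1, w}` of `W` has index 2
  let w0 : ↥W := ⟨w, hw⟩
  have hw0sq : w0 * w0 = 1 := Subtype.ext (hexp w hw)
  have hw0ne : w0 ≠ 1 := fun h => hw1 (congrArg Subtype.val h)
  have hord : orderOf w0 = 2 :=
    orderOf_eq_prime (by rw [pow_two]; exact hw0sq) hw0ne
  set H : Subgroup ↥W := Subgroup.zpowers w0 with hH
  have hHcard : Nat.card H = 2 := by rw [Nat.card_zpowers, hord]
  have hHidx : H.index = 2 := by
    have h3 := Subgroup.card_mul_index H
    rw [hHcard, hcard] at h3
    omega
  have hHmem : ∀ x : ↥W, x ∈ H ↔ x = 1 ∨ x = w0 := by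
    intro x
    constructor
    · intro hx
      obtain ⟨n, rfl⟩ := Subgroup.mem_zpowers_iff.1 hx
      rcases Int.even_or_odd' n with ⟨m, rfl | rfl⟩
      · left
        rw [zpow_mul, zpow_ofNat, pow_two, hw0sq, one_zpow]
      · right
        rw [zpow_add, zpow_mul, zpow_ofNat, pow_two, hw0sq, one_zpow, one_mul, zpow_one]
    · rintro (rfl | rfl)
      · exact one_mem _
      · exact Subgroup.mem_zpowers _
  have hinv : ∀ a ∈ W, a⁻¹ = a := fun a ha => inv_eq_of_mul_eq_one_left (hexp a ha)
  -- main claim
  have main : ∀ k' ∈ K, ∀ a ∈ W, k' * a = a * k' := by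
    intro k' hk' a ha
    by_cases ha1 : a = 1
    · rw [ha1, mul_one, one_mul]
    by_cases haw : a = w
    · rw [haw]; exact hKw k' hk'
    have hb : k' * a * k'⁻¹ ∈ W := hKW k' hk' a ha
    set b : G := k' * a * k'⁻¹ with hbdef
    have hkab : k' * a = b * k' := by rw [hbdef]; group
    have hb1 : b ≠ 1 := by
      intro h
      rw [h, one_mul] at hkab
      exact ha1 (mul_eq_left.1 hkab)
    have hbw : b ≠ w := by
      intro h
      rw [h, ← hKw k' hk'] at hkab
      exact haw (mul_left_cancel hkab)
    let a0 : ↥W := ⟨a, ha⟩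
    let b0 : ↥W := ⟨b, hb⟩
    have ha0 : a0 ∉ H := by
      rw [hHmem]
      rintro (h | h)
      · exact ha1 (congrArg Subtype.val h)
      · exact haw (congrArg Subtype.val h)
    have hb0 : b0 ∉ H := by
      rw [hHmem]
      rintro (h | h)
      · exact hb1 (congrArg Subtype.val h)
      · exact hbw (congrArg Subtype.val h)
    have hab0 : a0 * b0 ∈ H := by
      rw [Subgroup.mul_mem_iff_of_index_two hHidx]
      exact ⟨fun h => absurd h ha0, fun h => absurd h hb0⟩
    rw [hHmem] at hab0
    rcases hab0 with h | h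
    · have h' : a * b = 1 := congrArg Subtype.val h
      have hba : b = a := by
        rw [← hinv a ha]
        exact (inv_eq_of_mul_eq_one_right h').symm
      rw [hkab, hba]
    · exfalso
      have h' : a * b = w := congrArg Subtype.val h
      have hba : b = a * w := by
        rw [← h', ← mul_assoc, hexp a ha, one_mul]
      have e1 : k' * a = a * w * k' := by rw [hkab, hba]
      have e2 : k' * w = w * k' := hKw k' hk'
      have h3 : k' ^ 3 * a = a * k' ^ 3 := hQW _ (hcube k' hk') a ha
      have h4 : k' ^ 3 * a = a * w * k' ^ 3 := by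
        calc k' ^ 3 * a = k' * (k' * (k' * a)) := by
              rw [pow_succ, pow_two]; simp only [mul_assoc]
          _ = k' * (k' * (a * w * k')) := by rw [e1]
          _ = k' * ((k' * a) * w * k') := by simp only [mul_assoc]
          _ = k' * (a * w * k' * w * k') := by rw [e1]
          _ = k' * (a * w * (k' * w) * k') := by simp only [mul_assoc]
          _ = k' * (a * w * (w * k') * k') := by rw [e2]
          _ = k' * (a * (w * w) * k' * k') := by simp only [mul_assoc]
          _ = (k' * a) * k' * k' := by rw [hexp w hw, mul_one]; simp only [mul_assoc]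
          _ = a * w * k' * k' * k' := by rw [e1]
          _ = a * w * k' ^ 3 := by rw [pow_succ, pow_two]; simp only [mul_assoc]
      rw [h3] at h4
      have h5 : a = a * w := mul_right_cancel h4
      exact hw1 (mul_eq_left.1 h5.symm)
  apply hnc
  intro k' hk'
  rw [Subgroup.mem_centralizer_iff]
  intro a ha
  exact (main k' hk' a ha).symm

end Cfsg.Agent.H57.Jc
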