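import Mathlib
import Cfsg.Agent.H58.BG10Defs3

set_option autoImplicit false

/-!
# B&G 12.18(a) ("LEMMA R" of the S1428 project): the pieces as `Prop`s (helper57)

`F = Q·R` is a Frobenius-like group (`R` of prime order normalising `Q`, `C_Q(R) = 1`).

* `StM1R`  : relative fixed-point lemma for an abelian section `V / W`.
* `StAbDec`: `[V, Q] ∩ C(Q) = 1` for an abelian `V` with a coprime action of `Q`.
* `StCore` : the two pure statements used in Lemma R.
* `StLemR` : Lemma R itself (same body as `Cfsg.Agent.H90.BG134.StLemR`).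
-/

namespace Cfsg.Agent.H57.BG134R

open Cfsg Subgroup

universe u

/-- Relative `M1`: `W ≤ V` with `V / W` abelian, both normalised by `Q` and `R`, `|V|` prime to `|Q|`,
no fixed points of `Q` or of `R` on `V / W`; then `V = W`. -/
def StM1R (G : Type u) [Group G] : Prop :=
  ∀ (V W Q R : Subgroup G) (r : ℕ), W ≤ V → ⁅V, V⁆ ≤ W →
    Q ≤ normalizer (V : Set G) → R ≤ normalizer (V : Set G) →
    Q ≤ normalizer (W : Set G) → R ≤ normalizer (W : Set G) →
    R ≤ normalizer (Q : Set G) → r.Prime → Nat.card R = r →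
    Q ⊓ centralizer (R : Set G) = ⊥ →
    (Nat.card Q).Coprime (Nat.card V) →
    (∀ v ∈ V, (∀ x ∈ Q, x * v * x⁻¹ * v⁻¹ ∈ W) → v ∈ W) →
    (∀ v ∈ V, (∀ y ∈ R, y * v * y⁻¹ * v⁻¹ ∈ W) → v ∈ W) →
    V ≤ W

/-- Coprime action on an abelian group: `[V, Q] ∩ C(Q) = 1`. -/
def StAbDec (G : Type u) [Group G] : Prop :=
  ∀ (V Q : Subgroup G), (∀ a ∈ V, ∀ b ∈ V, a * b = b * a) →
    Q ≤ normalizer (V : Set G) → (Nat.card Q).Coprime (Nat.card V) →
    ⁅V, Q⁆ ⊓ centralizer (Q : Set G) = ⊥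

/-- The pure core of Lemma R: `S` an `s`-group acted on by `Q` and `R`. -/
def StCore (G : Type u) [Group G] : Prop :=
  ∀ (S Q R : Subgroup G) (s r : ℕ), s.Prime → IsPGroup s S →
    Q ≤ normalizer (S : Set G) → R ≤ normalizer (S : Set G) →
    R ≤ normalizer (Q : Set G) → r.Prime → Nat.card R = r → r ≠ s →
    Q ⊓ centralizer (R : Set G) = ⊥ →
    (Nat.card Q).Coprime (Nat.card S) →
    (S ⊓ centralizer (R : Set G) = ⊥ → S ≤ centralizer (Q : Set G)) ∧
    (IsCyclic ↥(S ⊓ centralizer (Q : Set G)) → IsCyclic ↥(S ⊓ centralizer (R : Set G)) →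
      S ⊓ centralizer (Q : Set G) ⊓ centralizer (R : Set G) ≠ ⊥ →
      S ≤ centralizer (Q : Set G))

/-- Lemma R = B&G 12.18(a). -/
def StLemR (G : Type u) [Group G] : Prop :=
  ∀ (H : Subgroup G), IsCoatom H → ∀ (r : ℕ), r ∈ tau1 H → ∀ R : Subgroup G, R ≤ H →
    Nat.card R = r → ∀ (q : ℕ), q.Prime → q ≠ r → q ∉ alpha H → ∀ Q : Subgroup G, Q ≠ ⊥ →
    IsPGroup q Q → Q ≤ H → R ≤ normalizer (Q : Set G) → Q ⊓ centralizer (R : Set G) = ⊥ →
    ∀ L : Subgroup G, IsCoatom L → L ≠ H → normalizer (Q : Set G) ≤ L →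
      alphaCore H ⊓ centralizer (Q : Set G) ⊓ centralizer (R : Set G) = ⊥ ∧
        (alphaCore H ≠ ⊥ → alphaCore H ⊓ centralizer (R : Set G) ≠ ⊥)

end Cfsg.Agent.H57.BG134R
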