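import Mathlib
import Cfsg.Agent.H47.BG139Defs
import Cfsg.Agent.H47.BG1216E1
import Cfsg.Agent.Lib.Helper30.Trans
import Cfsg.Agent.H1.Coprime

set_option autoImplicit false

/-!
# BG139-INN (piece of S1378, B&G 13.9) — helper57
-/

namespace Cfsg.Agent.H57.BG139

open Cfsg Subgroup Cfsg.Agent.H58.BG10 Cfsg.Agent.H47.BG139 Cfsg.Agent.H63.Sig
open scoped Pointwise

universe u

variable {G : Type u} [Group G] [Finite G]

/-- If `zpowers x = ⊤` then its centralizer is `⊤`. -/
theorem centralizer_zpowers_top {x : G} (h : (zpowers x : Subgroup G) = ⊤) :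
    centralizer ((zpowers x : Subgroup G) : Set G) = ⊤ := by
  rw [eq_top_iff]
  intro g _
  rw [mem_centralizer_iff]
  intro k hk
  have hg : g ∈ (zpowers x : Subgroup G) := by rw [h]; trivial
  obtain ⟨i, rfl⟩ := mem_zpowers_iff.mp hg
  obtain ⟨j, rfl⟩ := mem_zpowers_iff.mp hk
  rw [← zpow_add, ← zpow_add, add_comm]

/-- A coatom over the normalizer of `zpowers x` when the centralizer of `zpowers x` lies in a
unique coatom `M`: the normalizer lies in `M`. -/
theorem normalizer_zpowers_le (hG : IsMinSimpleOddOrder G) {M : Subgroup G} (hM : IsCoatom M)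
    {x : G} (hx1 : x ≠ 1)
    (hU : centralizer ((zpowers x : Subgroup G) : Set G) ≤ M ∧
      ∀ L : Subgroup G, IsCoatom L →
        centralizer ((zpowers x : Subgroup G) : Set G) ≤ L → L = M) :
    normalizer ((zpowers x : Subgroup G) : Set G) ≤ M := by
  have hne : (zpowers x : Subgroup G) ≠ ⊥ := by
    intro h
    exact hx1 (zpowers_eq_bot.mp h)
  have hnt : (zpowers x : Subgroup G) ≠ ⊤ := by
    intro h
    have := centralizer_zpowers_top h
    rw [this] at hU
    exact hM.1 (top_le_iff.mp hU.1)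
  have hN := Cfsg.Agent.Lib.Helper30.minSimple_normalizer_ne_top hG hne hnt
  obtain ⟨L, hL, hNL⟩ := (eq_top_or_exists_le_coatom _).resolve_left hN
  have hCL : centralizer ((zpowers x : Subgroup G) : Set G) ≤ L := by
    refine le_trans ?_ hNL
    intro c hc
    rw [mem_normalizer_iff]
    intro k
    have hck : ∀ k' ∈ (zpowers x : Subgroup G), c * k' * c⁻¹ = k' := by
      intro k' hk'
      have := (mem_centralizer_iff.mp hc) k' hk'
      rw [← this]; group
    constructor
    · intro hk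
      rw [hck k hk]; exact hk
    · intro hk
      have h1 := hck _ hk
      have h2 : k = c * k * c⁻¹ := by
        have : c * (c * k * c⁻¹) * c⁻¹ = c * k * c⁻¹ := h1
        have h3 : c * k * c⁻¹ = k := by
          calc c * k * c⁻¹ = c⁻¹ * (c * (c * k * c⁻¹) * c⁻¹) * c := by group
            _ = c⁻¹ * (c * k * c⁻¹) * c := by rw [this]
            _ = k := by group
        exact h3.symm
      rw [h2]; exact hk
  have := hU.2 L hL hCL
  rw [← this]
  exact hNL

theorem card_sup_dvd (A D : Subgroup G) (hAD : A ≤ normalizer (D : Set G)) :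
    Nat.card (A ⊔ D : Subgroup G) ∣ Nat.card A * Nat.card D := by
  have h1 := Cfsg.Agent.H1.relIndex_sup_of_le_normalizer A D hAD
  have h2 := Subgroup.relIndex_mul_relIndex (⊥ : Subgroup G) D (A ⊔ D) bot_le le_sup_right
  rw [Subgroup.relIndex_bot_left, Subgroup.relIndex_bot_left, h1] at h2
  rw [← h2, mul_comm]
  exact Nat.mul_dvd_mul_right (Subgroup.relIndex_dvd_card D A) _

/-- **BG139-INN.** -/
theorem inN (hG : IsMinSimpleOddOrder G) (h50 : St1350 G)
    (hSC : Cfsg.Agent.H57.BG12.StSigConj G)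
    (h28 : Cfsg.Agent.Lib.Helper30.BG134.St1428 G) : StInN G := by
  intro M N' hM hN' r R hr hRM hRc x y hxσ hxR hxU hyR hyp hyσ hyU hor
  have hy1 : y ≠ 1 := by
    intro h
    rw [h, orderOf_one] at hyp
    exact Nat.not_prime_one hyp
  rcases hor with hyx | hxy
  · -- `y` normalizes `zpowers x`
    by_cases hx1 : x = 1
    · rw [hx1]; exact N'.one_mem
    have hyM : y ∈ M := normalizer_zpowers_le hG hM hx1 hxU hyx
    -- `Y := zpowers y ⊔ R`
    have hRn : R ≤ normalizer ((zpowers y : Subgroup G) : Set G) := by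
      intro a ha
      rw [mem_normalizer_iff]
      intro k
      have hak : ∀ k' ∈ (zpowers y : Subgroup G), a * k' * a⁻¹ = k' := by
        intro k' hk'
        obtain ⟨i, rfl⟩ := mem_zpowers_iff.mp hk'
        have h1 : a * y = y * a := (mem_centralizer_iff.mp hyR) a ha
        have h2 : a * y * a⁻¹ = y := by rw [h1]; group
        have h3 : a * y ^ i * a⁻¹ = (a * y * a⁻¹) ^ i := by
          rw [← MulAut.conj_apply, map_zpow, MulAut.conj_apply]
        rw [h3, h2]
      constructor
      · intro hk; rw [hak k hk]; exact hk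
      · intro hk
        have h1 := hak _ hk
        have h3 : a * k * a⁻¹ = k := by
          calc a * k * a⁻¹ = a⁻¹ * (a * (a * k * a⁻¹) * a⁻¹) * a := by group
            _ = a⁻¹ * (a * k * a⁻¹) * a := by rw [h1]
            _ = k := by group
        rw [← h3]; exact hk
    have hYM : (R ⊔ zpowers y : Subgroup G) ≤ M :=
      sup_le hRM ((zpowers_le).mpr hyM)
    have hYσ : ∀ p : ℕ, p.Prime → p ∣ Nat.card (R ⊔ zpowers y : Subgroup G) → p ∉ sigma M := by
      intro p hp hpd
      have h1 := hpd.trans (card_sup_dvd R (zpowers y) hRn)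
      rw [hRc, Nat.card_zpowers] at h1
      rcases (Nat.Prime.dvd_mul hp).mp h1 with h2 | h2
      · rw [(Nat.prime_dvd_prime_iff_eq hp hr.1).mp h2]; exact hr.2.1
      · rw [(Nat.prime_dvd_prime_iff_eq hp hyp).mp h2]; exact hyσ
    obtain ⟨E0, hE0⟩ := Cfsg.Agent.H47.BG12.exists_complIn_sigmaCore h50 hM
    obtain ⟨g, hgM, hgY⟩ := hSC M hM E0 hE0 (R ⊔ zpowers y) hYM hYσ
    have hE : IsComplIn (MulAut.conj g⁻¹ • E0) (sigmaCore M) M :=
      Cfsg.Agent.H47.BG12.complIn_cj hE0 (M.inv_mem hgM)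
    have hYE : (R ⊔ zpowers y : Subgroup G) ≤ MulAut.conj g⁻¹ • E0 := by
      intro v hv
      rw [mem_cj, inv_inv]
      apply hgY
      exact ⟨v, hv, by simp [MulAut.conj_apply]⟩
    have hzE : (zpowers y : Subgroup G) ≤ (MulAut.conj g⁻¹ • E0) ⊓ centralizer (R : Set G) :=
      le_inf (le_sup_right.trans hYE) ((zpowers_le).mpr hyR)
    have h := h28 M hM _ hE r hr R (le_sup_left.trans hYE) hRc (zpowers y) hzE
      (by rw [Nat.card_zpowers]; exact hyp)
    have hx2 : x ∈ sigmaCore M ⊓ centralizer ((zpowers y : Subgroup G) : Set G) := h ⟨hxσ, hxR⟩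
    exact hyU.1 hx2.2
  · -- `x` normalizes `zpowers y`
    exact normalizer_zpowers_le hG hN' hy1 hyU hxy

end Cfsg.Agent.H57.BG139

example {G : Type*} [Group G] [Finite G] (hG : Cfsg.IsMinSimpleOddOrder G)
    (h50 : Cfsg.Agent.H58.BG10.St1350 G) (hSC : Cfsg.Agent.H57.BG12.StSigConj G)
    (h28 : Cfsg.Agent.Lib.Helper30.BG134.St1428 G) : Cfsg.Agent.H47.BG139.StInN G :=
  Cfsg.Agent.H57.BG139.inN hG h50 hSC h28
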