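import Mathlib
import Cfsg.Agent.H99.I2Defs
import Cfsg.Agent.H42.AltRank

set_option autoImplicit false
set_option linter.unusedVariables false

/-!
# Piece I2-ALL (helper57, for helper99's I2 sub-project of S5974 / S5990)
-/

namespace Cfsg.Agent.H57.I2

open Cfsg.Agent.H45 Cfsg.Agent.H48.Ep Cfsg.Agent.H99.I2 Module

universe u v

/-- a nondegenerate subspace of a quadratic space in characteristic `2` has even dimension -/
theorem even_finrank_of_qnd {F : Type u} [Field F] {V : Type v} [AddCommGroup V] [Module F V]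
    [FiniteDimensional F V] (Q : QuadraticForm F V) (h2 : (2 : F) = 0) (X : Submodule F V)
    (hX : QNd Q X) : Even (Module.finrank F X) := by
  let ω : X →ₗ[F] X →ₗ[F] F := (QuadraticMap.polarBilin Q).compl₁₂ X.subtype X.subtype
  have hω : ∀ x y : X, ω x y = QuadraticMap.polar ⇑Q (x : V) (y : V) := fun x y => rfl
  have halt : ∀ x : X, ω x x = 0 := by
    intro x
    rw [hω, QuadraticMap.polar_self, two_smul]
    have : Q (x : V) + Q (x : V) = (2 : F) * Q (x : V) := by ring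
    rw [this, h2, zero_mul]
  have hker : LinearMap.ker ω = ⊥ := by
    rw [Submodule.eq_bot_iff]
    intro x hx
    have hx' : (x : V) ∈ X ⊓ perp (QuadraticMap.polarBilin Q) X := by
      refine ⟨x.2, fun u hu => ?_⟩
      have h1 : ω x ⟨u, hu⟩ = 0 := by rw [LinearMap.mem_ker.mp hx]; rfl
      rw [hω] at h1
      show QuadraticMap.polar ⇑Q u (x : V) = 0
      rw [QuadraticMap.polar_comm]; exact h1
    have hX' : X ⊓ perp (QuadraticMap.polarBilin Q) X = ⊥ := hX
    rw [hX'] at hx'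
    exact Subtype.ext ((Submodule.mem_bot F).mp hx')
  have h1 := Cfsg.Agent.H42.alt_even_aux (F := F) (Module.finrank F X) X ω halt rfl
  rw [hker, finrank_bot, Nat.sub_zero] at h1
  exact h1

theorem all (hPlane : StI2Plane.{u,v}) (hPerp : StI2Perp.{u,v}) (hA : StI2AType.{u,v})
    (hSum : Cfsg.Agent.H48.Ep.StQSum.{u,v}) : StI2All.{u,v} := by
  intro F _ _ V _ _ _ Q T hctx
  have key : ∀ n : ℕ, ∀ X : Submodule F V, Module.finrank F X = n → Inv Q T X →
      Even (rk T X) →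
      AType Q T X ∨ ∀ m : ℕ, Even m → m ≤ Module.finrank F X →
        ∃ W : Submodule F V, W ≤ X ∧ Inv Q T W ∧ Module.finrank F W = m := by
    intro n
    induction n using Nat.strong_induction_on with
    | _ n ih =>
      intro X hXn hX hev
      by_cases hAT : AType Q T X
      · exact Or.inl hAT
      right
      have hXe : Even (Module.finrank F X) := even_finrank_of_qnd Q hctx.two X hX.2
      obtain ⟨cX, hcX⟩ := hXe
      obtain ⟨P₁, hP₁X, hP₁, hP₁d, hP₁r⟩ := hPlane F V Q T hctx X hX hAT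
      obtain ⟨hX₁, hX₁d, hX₁sup, hX₁orth, hX₁r⟩ := hPerp F V Q T hctx X P₁ hX hP₁ hP₁X
      generalize hX₁def : X ⊓ perp (QuadraticMap.polarBilin Q) P₁ = X₁ at hX₁ hX₁d hX₁sup hX₁orth hX₁r
      have hX₁X : X₁ ≤ X := by rw [← hX₁def]; exact inf_le_left
      have hAT₁ : ¬ AType Q T X₁ := by
        intro h
        obtain ⟨t, ht, -⟩ := hA F V Q T hctx X₁ hX₁ h
        rw [hP₁r, ht] at hX₁r
        rw [hX₁r] at hev
        rcases hev with ⟨c, hc⟩
        omega
      obtain ⟨P₂, hP₂X, hP₂, hP₂d, hP₂r⟩ := hPlane F V Q T hctx X₁ hX₁ hAT₁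
      obtain ⟨hX₂, hX₂d, hX₂sup, hX₂orth, hX₂r⟩ := hPerp F V Q T hctx X₁ P₂ hX₁ hP₂ hP₂X
      generalize hX₂def : X₁ ⊓ perp (QuadraticMap.polarBilin Q) P₂ = X₂ at hX₂ hX₂d hX₂sup hX₂orth hX₂r
      have hX₂X₁ : X₂ ≤ X₁ := by rw [← hX₂def]; exact inf_le_left
      have hX₂X : X₂ ≤ X := hX₂X₁.trans hX₁X
      have hev₂ : Even (rk T X₂) := by
        rw [hX₁r, hP₁r, hX₂r, hP₂r] at hev
        rcases hev with ⟨c, hc⟩
        exact ⟨c - 1, by omega⟩
      intro m hm hmle
      by_cases h1 : m = Module.finrank F X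
      · exact ⟨X, le_rfl, hX, h1.symm⟩
      by_cases h2 : m = Module.finrank F X₁
      · exact ⟨X₁, hX₁X, hX₁, h2.symm⟩
      obtain ⟨c, hc⟩ := hm
      have hm2 : m ≤ Module.finrank F X₂ := by omega
      rcases ih (Module.finrank F X₂) (by omega) X₂ rfl hX₂ hev₂ with hAT₂ | hall
      · obtain ⟨t, ht, ht4, hshape⟩ := hA F V Q T hctx X₂ hX₂ hAT₂
        by_cases hm4 : m ≤ 4 * t
        · by_cases hm0 : m % 4 = 0
          · obtain ⟨W, hWX, hW, hWd, -⟩ := hshape m True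
              ⟨m / 4, 0, by omega, by omega, ⟨0, rfl⟩, by omega, Or.inr (Or.inl ⟨rfl, trivial⟩)⟩
            exact ⟨W, hWX.trans hX₂X, hW, hWd⟩
          · obtain ⟨W', hW'X, hW', hW'd, -⟩ := hshape (m - 2) True
              ⟨(m - 2) / 4, 0, by omega, by omega, ⟨0, rfl⟩, by omega,
                Or.inr (Or.inl ⟨rfl, trivial⟩)⟩
            have hs := hSum F V Q P₂ W' hP₂.2 hW'.2
              (fun x hx y hy => hX₂orth x hx y (hW'X hy))
              (by rw [hP₂d]; exact ⟨1, rfl⟩) (by rw [hW'd]; exact ⟨c - 1, by omega⟩)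
            refine ⟨P₂ ⊔ W', sup_le (hP₂X.trans hX₁X) (hW'X.trans hX₂X), ⟨?_, hs.1⟩, ?_⟩
            · exact Sublattice.sup_mem hP₂.1 hW'.1
            · rw [hs.2.1, hP₂d, hW'd]; omega
        · by_cases he : m - 4 * t < Module.finrank F X₂ - 4 * t
          · obtain ⟨W, hWX, hW, hWd, -⟩ := hshape m True
              ⟨t, m - 4 * t, le_rfl, by omega, ⟨c - 2 * t, by omega⟩, by omega,
                Or.inl ⟨by omega, he⟩⟩
            exact ⟨W, hWX.trans hX₂X, hW, hWd⟩
          · obtain ⟨W, hWX, hW, hWd, -⟩ := hshape m (QPlus Q X₂)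
              ⟨t, m - 4 * t, le_rfl, by omega, ⟨c - 2 * t, by omega⟩, by omega,
                Or.inr (Or.inr ⟨by omega, by omega, Iff.rfl⟩)⟩
            exact ⟨W, hWX.trans hX₂X, hW, hWd⟩
      · obtain ⟨W, hWX, hW, hWd⟩ := hall m ⟨c, hc⟩ hm2
        exact ⟨W, hWX.trans hX₂X, hW, hWd⟩
  intro X hX hev
  exact key _ X rfl hX hev

example (hPlane : StI2Plane.{u,v}) (hPerp : StI2Perp.{u,v}) (hA : StI2AType.{u,v})
    (hSum : Cfsg.Agent.H48.Ep.StQSum.{u,v}) : StI2All.{u,v} := all hPlane hPerp hA hSum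

end Cfsg.Agent.H57.I2
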