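import Mathlib
import Cfsg.Agent.H57.BG1218Defs
import Cfsg.Agent.H57.BG126
import Cfsg.Agent.H58.Sig2

set_option autoImplicit false

/-!
# Bender–Glauberman Lemma 12.18 (S1427): assembly of the key step (helper57)
-/

namespace Cfsg.Agent.H57.BG1218

open Cfsg Subgroup Cfsg.Agent.H58.BG10

universe u

variable {G : Type u} [Group G] [Finite G]

/-- A cyclic subgroup is commutative, elementwise. -/
theorem comm_of_cyclic {S : Subgroup G} (h : IsCyclic S) :
    ∀ a ∈ S, ∀ b ∈ S, a * b = b * a := by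
  intro a ha b hb
  obtain ⟨g, hg⟩ := h.exists_generator
  obtain ⟨m, hm⟩ := Subgroup.mem_zpowers_iff.mp (hg ⟨a, ha⟩)
  obtain ⟨n, hn⟩ := Subgroup.mem_zpowers_iff.mp (hg ⟨b, hb⟩)
  have ha' : a = (g : G) ^ m := by
    have := congrArg Subtype.val hm
    simpa using this.symm
  have hb' : b = (g : G) ^ n := by
    have := congrArg Subtype.val hn
    simpa using this.symm
  rw [ha', hb']
  exact (Commute.zpow_zpow_self (g : G) m n).eq

/-- A nontrivial `q`-group has order divisible by `q`. -/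
theorem dvd_card_of_ne_bot {q : ℕ} [Fact q.Prime] {Q : Subgroup G} (hQ : IsPGroup q Q)
    (h1 : Q ≠ ⊥) : q ∣ Nat.card Q := by
  obtain ⟨n, hn⟩ := IsPGroup.iff_card.mp hQ
  rcases n with _ | n
  · exfalso
    apply h1
    rw [pow_zero] at hn
    exact Subgroup.card_eq_one.mp hn
  · rw [hn]
    exact dvd_pow_self q (Nat.succ_ne_zero n)

/-- The key step of B&G 12.18, from its pieces. -/
theorem key (h1409 : St1409 G) (h17 : St1417 G)
    (hCoat : StCoat G) (hCase1 : StCase1 G) (hNil : StNilConj G) (hSylH : StSylH G)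
    (hNab : StCase2Nab G) (hGen : StInvGen G) : StKey G := by
  intro M hM p _ hpσ hrk S X hSM hSp hSc hXS hXc
  have hp : p.Prime := Fact.out
  have hScomm := comm_of_cyclic hSc
  have hSCX : S ≤ centralizer (X : Set G) := by
    intro s hs
    rw [Subgroup.mem_centralizer_iff]
    intro x hx
    exact hScomm x (hXS hx) s hs
  by_cases hSX : S = X
  · subst hSX
    exact inf_le_right
  obtain ⟨H, hH, hNH, hnc⟩ := hCoat M hM p hpσ hrk X hXc
  have hCXH : centralizer (X : Set G) ≤ H :=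
    (Subgroup.centralizer_le_normalizer (X : Set G)).trans hNH
  have hSH : S ≤ H := hSCX.trans hCXH
  have hSN : S ≤ normalizer ((sigmaCore M ⊓ centralizer (X : Set G) : Subgroup G) : Set G) := by
    intro s hs
    have h1 : s ∈ normalizer (sigmaCore M : Set G) :=
      Cfsg.Agent.H57.BG12.le_normalizer_sigmaCore M (hSM hs)
    have h2 : s ∈ normalizer ((centralizer (X : Set G) : Subgroup G) : Set G) :=
      Subgroup.le_normalizer (hSCX hs)
    rw [Subgroup.mem_normalizer_iff] at h1 h2 ⊢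
    intro g
    constructor
    · rintro ⟨hg1, hg2⟩
      exact ⟨(h1 g).mp hg1, (h2 g).mp hg2⟩
    · rintro ⟨hg1, hg2⟩
      exact ⟨(h1 g).mpr hg1, (h2 g).mpr hg2⟩
  have hpC : ¬ p ∣ Nat.card ↥(sigmaCore M ⊓ centralizer (X : Set G)) := by
    intro hdvd
    have h3 : p ∣ Nat.card (sigmaCore M) := hdvd.trans (Subgroup.card_dvd_of_le inf_le_left)
    exact hpσ (Cfsg.Agent.Lib.Helper30.piCoreOf_isPi (sigma M) M p hp h3)
  apply hGen p S _ hSp hSN hpC
  intro q _ Q hQC hQ hSQ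
  have hq : q.Prime := Fact.out
  by_cases hQ1 : Q = ⊥
  · rw [hQ1]
    exact bot_le
  have hqQ : q ∣ Nat.card Q := dvd_card_of_ne_bot hQ hQ1
  have hQM : Q ≤ sigmaCore M := hQC.trans inf_le_left
  have hqM : q ∈ sigma M :=
    Cfsg.Agent.Lib.Helper30.piCoreOf_isPi (sigma M) M q hq
      (hqQ.trans (Subgroup.card_dvd_of_le hQM))
  have hqp : q ≠ p := by
    rintro rfl
    exact hpσ hqM
  have hQH : Q ≤ H := (hQC.trans inf_le_right).trans hCXH
  by_cases hpH : p ∈ sigma H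
  · exact hCase1 M H hM hH hnc p hpH S hSH hSp q hqp Q hQM hQH hQ hSQ
  obtain ⟨⟨hr2, hr1⟩, -, A, hAe, hAc, hXA⟩ := h1409 H hH p hpH X hXc hNH
  have hτ : p ∈ tau2 H := ⟨hp, hpH, hr2, hr1⟩
  have hAH : A ≤ H := by
    refine le_trans ?_ hCXH
    intro a ha
    rw [Subgroup.mem_centralizer_iff]
    intro x hx
    have h11 := hAe.1.is_comm.comm (⟨x, hXA hx⟩ : A) ⟨a, ha⟩
    exact congrArg Subtype.val h11
  have hnil : Group.IsNilpotent (sigmaCore H) := (h17 H hH p hτ A ⟨hAH, hAe, hAc⟩).1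
  by_cases hqH : q ∈ sigma H
  · obtain ⟨g, hg⟩ := hNil M H hM hH hnil q hqM hqH
    exact absurd hg (hnc g)
  by_cases hab : ∃ P : Sylow p G, IsMulCommutative (P : Subgroup G)
  · obtain ⟨P, hSP, hPH, hHN⟩ := hSylH H hH p hτ hab S hSH hSp
    -- the order of `H_σ P` is prime to `q`
    have hPn : (P : Subgroup G) ≤ normalizer (sigmaCore H : Set G) :=
      hPH.trans (Cfsg.Agent.H57.BG12.le_normalizer_sigmaCore H)
    have hK : ¬ q ∣ Nat.card ↥(sigmaCore H ⊔ (P : Subgroup G)) := by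
      intro hdvd
      have h4 := hdvd.trans (Cfsg.Agent.H58.card_sup_dvd hPn)
      rcases (Nat.Prime.dvd_mul hq).mp h4 with h5 | h5
      · exact hqH (Cfsg.Agent.Lib.Helper30.piCoreOf_isPi (sigma H) H q hq h5)
      · obtain ⟨n, hn⟩ := IsPGroup.iff_card.mp P.isPGroup'
        rw [hn] at h5
        exact hqp ((Nat.prime_dvd_prime_iff_eq hq hp).mp (hq.dvd_of_dvd_pow h5))
    have hdisj : Q ⊓ (sigmaCore H ⊔ (P : Subgroup G)) = ⊥ := by
      apply disjoint_iff.mp
      apply Subgroup.disjoint_of_coprime_natCard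
      obtain ⟨k, hk⟩ := IsPGroup.iff_card.mp hQ
      rw [hk]
      exact Nat.Coprime.pow_left k ((Nat.Prime.coprime_iff_not_dvd hq).mpr hK)
    intro x hx
    rw [Subgroup.mem_centralizer_iff]
    intro s hs
    have hsQ : s ∈ normalizer (Q : Set G) := hSQ hs
    have hxK : x ∈ normalizer ((sigmaCore H ⊔ (P : Subgroup G) : Subgroup G) : Set G) :=
      hHN (hQH hx)
    have hc1 : x * s * x⁻¹ * s⁻¹ ∈ Q := by
      have h6 : s * x⁻¹ * s⁻¹ ∈ Q :=
        (Subgroup.mem_normalizer_iff.mp hsQ x⁻¹).mp (Q.inv_mem hx)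
      have h7 : x * s * x⁻¹ * s⁻¹ = x * (s * x⁻¹ * s⁻¹) := by group
      rw [h7]
      exact Q.mul_mem hx h6
    have hc2 : x * s * x⁻¹ * s⁻¹ ∈ sigmaCore H ⊔ (P : Subgroup G) := by
      have hsK : s ∈ sigmaCore H ⊔ (P : Subgroup G) := le_sup_right (α := Subgroup G) (hSP hs)
      have h8 : x * s * x⁻¹ ∈ sigmaCore H ⊔ (P : Subgroup G) :=
        (Subgroup.mem_normalizer_iff.mp hxK s).mp hsK
      exact Subgroup.mul_mem _ h8 (Subgroup.inv_mem _ hsK)
    have hc : x * s * x⁻¹ * s⁻¹ = 1 := by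
      have : x * s * x⁻¹ * s⁻¹ ∈ Q ⊓ (sigmaCore H ⊔ (P : Subgroup G)) := ⟨hc1, hc2⟩
      rw [hdisj] at this
      exact Subgroup.mem_bot.mp this
    have h9 : x * s = s * x := by
      have h10 : x * s = (x * s * x⁻¹ * s⁻¹) * (s * x) := by group
      rw [h10, hc, one_mul]
    exact h9.symm
  · push Not at hab
    exact absurd (hNab H hH p hτ hab S X hSp hSc hXS hXc hCXH) hSX

end Cfsg.Agent.H57.BG1218
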