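import Mathlib
import Cfsg.Agent.H76.NCKillDefs
import Cfsg.Agent.S1411
import Cfsg.Agent.S1414
import Cfsg.Agent.Lib.Helper30.CoprimeIface

set_option autoImplicit false
set_option linter.unusedVariables false
set_option linter.style.haveILetI false

/-!
# Piece NCK-SYLP (helper57, for helper76's NCK sub-project of S1353 / S1354)
-/

namespace Cfsg.Agent.H57.NCKill

open Cfsg Subgroup Cfsg.Agent.H76.NCKill

universe u

/-- Schur–Zassenhaus complement of a Sylow subgroup in its normalizer, in `IsComplIn` form -/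
theorem exists_complIn_normalizer {G : Type u} [Group G] [Finite G] {p : ℕ} [Fact p.Prime]
    (P : Sylow p G) :
    ∃ K : Subgroup G, IsComplIn (P : Subgroup G) K (normalizer ((P : Subgroup G) : Set G)) := by
  have hp : p.Prime := Fact.out
  obtain ⟨N, hN⟩ : ∃ N : Subgroup G, N = normalizer ((P : Subgroup G) : Set G) := ⟨_, rfl⟩
  rw [← hN]
  have hPN : (P : Subgroup G) ≤ N := by rw [hN]; exact le_normalizer
  have hnormal : ((P : Subgroup G).subgroupOf N).Normal := by
    rw [hN]; infer_instance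
  have hnd : ¬ p ∣ ((P : Subgroup G).subgroupOf N).index := by
    intro hdvd
    have h2 : (P : Subgroup G).relIndex N * N.index = (P : Subgroup G).index :=
      Subgroup.relIndex_mul_index hPN
    have h3 : p ∣ (P : Subgroup G).relIndex N := hdvd
    exact P.not_dvd_index (dvd_trans h3 (Dvd.intro _ h2))
  obtain ⟨n, hn⟩ := P.isPGroup'.exists_card_eq
  have hcop : Nat.Coprime (Nat.card ((P : Subgroup G).subgroupOf N))
      ((P : Subgroup G).subgroupOf N).index := by
    have h1 : Nat.card ((P : Subgroup G).subgroupOf N) = Nat.card (P : Subgroup G) :=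
      Nat.card_congr (Subgroup.subgroupOfEquivOfLe hPN).toEquiv
    rw [h1, hn]
    exact Nat.Coprime.pow_left n ((Nat.Prime.coprime_iff_not_dvd hp).2 hnd)
  obtain ⟨H, hH⟩ := Subgroup.exists_right_complement'_of_coprime hcop
  have hKcop : (Nat.card (H.map N.subtype)).Coprime p := by
    rw [Subgroup.card_map_of_injective N.subtype_injective]
    have h1 : Nat.card H = ((P : Subgroup G).subgroupOf N).index :=
      (hH.symm.index_eq_card).symm
    rw [h1]
    exact ((Nat.Prime.coprime_iff_not_dvd hp).2 hnd).symm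
  refine ⟨H.map N.subtype, hPN, ?_, ?_, ?_⟩
  · rintro _ ⟨h, _, rfl⟩; exact h.2
  · apply Subgroup.inf_eq_bot_of_coprime
    rw [hn]
    exact Nat.Coprime.pow_left n hKcop.symm
  · intro m hm
    have hbij := Subgroup.isComplement'_def.1 hH
    obtain ⟨⟨a, b⟩, hab⟩ := hbij.2 ⟨m, hm⟩
    refine ⟨a.1.1, Subgroup.mem_subgroupOf.1 a.2, b.1.1, ⟨b.1, b.2, rfl⟩, ?_⟩
    have h1 := congrArg Subtype.val hab
    exact h1.symm

theorem sylP {G : Type u} [Group G] [Finite G] : StSylP G := by
  intro hG M E A P r p _ hNC Ms hMs hEMs hpβ hS1 hNS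
  obtain ⟨S₁, hS₁Ms, hAS₁⟩ := hS1
  have hr : r.Prime := Fact.out
  have hp : p.Prime := hNC.tau1.1
  have hrp : r ≠ p := by
    intro h
    have h1 : ¬ PRankLE r 1 M := hNC.tau2.2.2.2
    have h2 : PRankLE p 1 M := hNC.tau1.2.2.2.2
    rw [h] at h1
    exact h1 h2
  -- `S₁ ≤ Ms'`
  obtain ⟨V, hV⟩ := exists_complIn_normalizer S₁
  have h11 := (Cfsg.Agent.S1411.result hG r S₁ V hV).2
  have hS₁D : (S₁ : Subgroup G) ≤ ⁅Ms, Ms⁆ :=
    h11.trans (Subgroup.commutator_mono (hNS S₁ hS₁Ms) (hNS S₁ hS₁Ms))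
  -- the normal `p`-complement of `Ms'`
  have hPMs : P ≤ Ms := hNC.PE.trans hEMs
  have hpdvd : p ∣ Nat.card Ms := by
    rw [← hNC.Pcard]; exact Subgroup.card_dvd_of_le hPMs
  obtain ⟨D, hD⟩ : ∃ D : Subgroup G, D = ⁅Ms, Ms⁆ := ⟨_, rfl⟩
  have h14 := ((Cfsg.Agent.S1414.result hG Ms hMs).2.2.2.2 p hp hpdvd hpβ).1
  rw [← hD] at h14 hS₁D ⊢
  obtain ⟨Pd, N, hNn, hNc⟩ := h14
  haveI := hNn
  haveI : Fact p.Prime := ⟨hp⟩
  have hNcop : (Nat.card N).Coprime p := by
    have h1 : (Pd : Subgroup D).index = Nat.card N := hNc.index_eq_card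
    have h2 : ¬ p ∣ (Pd : Subgroup D).index := Pd.not_dvd_index
    rw [h1] at h2
    exact ((Nat.Prime.coprime_iff_not_dvd hp).2 h2).symm
  have hquot : IsPGroup p (D ⧸ N) := by
    have h1 : N.index = Nat.card (Pd : Subgroup D) := hNc.symm.index_eq_card
    obtain ⟨n, hn⟩ := Pd.isPGroup'.exists_card_eq
    apply IsPGroup.of_card (n := n)
    rw [← hn, ← h1, Subgroup.index_eq_card]
  have hmemN : ∀ x : D, (orderOf x).Coprime p → x ∈ N := by
    intro x hx
    have h1 : orderOf (QuotientGroup.mk' N x) ∣ orderOf x := orderOf_map_dvd _ x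
    obtain ⟨k, hk⟩ := hquot (QuotientGroup.mk' N x)
    have h2 : orderOf (QuotientGroup.mk' N x) ∣ p ^ k := orderOf_dvd_of_pow_eq_one hk
    have hc : (orderOf x).Coprime (p ^ k) := Nat.Coprime.pow_right k hx
    have h3 : orderOf (QuotientGroup.mk' N x) = 1 :=
      Nat.Coprime.eq_one_of_dvd (Nat.Coprime.coprime_dvd_left h1 hc) h2
    have h4 : QuotientGroup.mk' N x = 1 := orderOf_eq_one_iff.mp h3
    exact (QuotientGroup.eq_one_iff x).mp h4
  obtain ⟨K, hK⟩ : ∃ K : Subgroup G, K = N.map D.subtype := ⟨_, rfl⟩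
  have hKD : K ≤ D := by rw [hK]; exact Subgroup.map_subtype_le N
  have hKcard : Nat.card K = Nat.card N := by
    rw [hK]; exact Subgroup.card_map_of_injective D.subtype_injective
  have hmemK : ∀ x : G, x ∈ D → (orderOf x).Coprime p → x ∈ K := by
    intro x hxD hx
    rw [hK]
    refine ⟨⟨x, hxD⟩, hmemN ⟨x, hxD⟩ ?_, rfl⟩
    rw [Subgroup.orderOf_mk]; exact hx
  have hKord : ∀ x ∈ K, (orderOf x).Coprime p := by
    intro x hx
    have h1 : orderOf x ∣ Nat.card K := by
      have := orderOf_dvd_natCard (⟨x, hx⟩ : K)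
      rwa [Subgroup.orderOf_mk] at this
    rw [hKcard] at h1
    exact Nat.Coprime.coprime_dvd_left h1 hNcop
  have hS₁K : (S₁ : Subgroup G) ≤ K := by
    intro s hs
    apply hmemK s (hS₁D hs)
    obtain ⟨k, hk⟩ := S₁.isPGroup' ⟨s, hs⟩
    have hk' : s ^ r ^ k = 1 := by simpa using congrArg Subtype.val hk
    have h1 : orderOf s ∣ r ^ k := orderOf_dvd_of_pow_eq_one hk'
    exact Nat.Coprime.coprime_dvd_left h1
      (Nat.Coprime.pow_left k ((Nat.coprime_primes hr hp).mpr hrp))
  have hDnorm : ∀ g ∈ Ms, ∀ x ∈ D, g * x * g⁻¹ ∈ D := by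
    intro g hg x hx
    have h2 : Ms.map (MulAut.conj g).toMonoidHom = Ms := by
      ext y; constructor
      · rintro ⟨z, hz, rfl⟩
        exact Ms.mul_mem (Ms.mul_mem hg hz) (Ms.inv_mem hg)
      · intro hy
        exact ⟨g⁻¹ * y * g, Ms.mul_mem (Ms.mul_mem (Ms.inv_mem hg) hy) hg, by
          simp [mul_assoc]⟩
    have h1 : D.map (MulAut.conj g).toMonoidHom = D := by
      rw [hD, Subgroup.map_commutator, h2]
    rw [← h1]
    exact ⟨x, hx, rfl⟩
  have hconj : ∀ g ∈ P, ∀ x ∈ K, g * x * g⁻¹ ∈ K := by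
    intro g hg x hx
    apply hmemK _ (hDnorm g (hPMs hg) x (hKD hx))
    have h1 : orderOf (g * x * g⁻¹) = orderOf x :=
      orderOf_injective (MulAut.conj g).toMonoidHom (MulAut.conj g).injective x
    rw [h1]; exact hKord x hx
  have hPK : P ≤ normalizer (K : Set G) := by
    intro g hg
    rw [Subgroup.mem_normalizer_iff]
    intro x
    constructor
    · exact hconj g hg x
    · intro h
      have h1 := hconj g⁻¹ (P.inv_mem hg) _ h
      have h2 : g⁻¹ * (g * x * g⁻¹) * g⁻¹⁻¹ = x := by group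
      rwa [h2] at h1
  have hcop : (Nat.card P).Coprime (Nat.card K) := by
    rw [hNC.Pcard, hKcard]; exact hNcop.symm
  have hPsolv : Group.IsSolvable P := by
    haveI : IsCyclic P := isCyclic_of_prime_card (p := p) hNC.Pcard
    exact Group.isSolvable_of_comm (fun a b => mul_comm' a b)
  have hA0S₁ : A0 M A ≤ (S₁ : Subgroup G) := inf_le_left.trans hAS₁
  have hA0K : A0 M A ≤ K := hA0S₁.trans hS₁K
  have hA0p : IsPGroup r (A0 M A) := S₁.isPGroup'.to_le hA0S₁
  have hPA0 : P ≤ normalizer ((A0 M A : Subgroup G) : Set G) :=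
    hNC.PA0.trans (Subgroup.centralizer_le_normalizer _)
  obtain ⟨Sy, hSy1, hSy2⟩ := Cfsg.Agent.Lib.Helper30.coprime_invariant_le_sylow P K hPK hcop
    (Or.inl hPsolv) r (A0 M A) hA0K hA0p hPA0
  have hfac : (Nat.card K).factorization r = (Nat.card G).factorization r := by
    apply le_antisymm
    · exact (Nat.factorization_le_iff_dvd (Nat.card_pos.ne') (Nat.card_pos.ne')).mpr
        (Subgroup.card_subgroup_dvd_card K) r
    · have h1 : r ^ (Nat.card G).factorization r ∣ Nat.card K := by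
        rw [← S₁.card_eq_multiplicity]; exact Subgroup.card_dvd_of_le hS₁K
      exact (hr.pow_dvd_iff_le_factorization (Nat.card_pos.ne')).mp h1
  have hcardSy : Nat.card ((Sy : Subgroup K).map K.subtype) =
      r ^ (Nat.card G).factorization r := by
    rw [Subgroup.card_map_of_injective K.subtype_injective, Sy.card_eq_multiplicity, hfac]
  refine ⟨Sylow.ofCard _ hcardSy, ?_, ?_, ?_⟩
  · rw [Sylow.coe_ofCard]; exact (Subgroup.map_subtype_le _).trans hKD
  · rw [Sylow.coe_ofCard]; exact hSy1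
  · rw [Sylow.coe_ofCard]; exact hSy2

example {G : Type u} [Group G] [Finite G] : Cfsg.Agent.H76.NCKill.StSylP G := sylP

end Cfsg.Agent.H57.NCKill
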