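import Mathlib
import Cfsg.Agent.H92.F2Defs
import Cfsg.Agent.H31.BG14UMain
import Cfsg.Agent.H47.NCKComm
import Cfsg.Agent.H57.NCKSylP
import Cfsg.Agent.H57.BG126
import Cfsg.Agent.S1411

set_option autoImplicit false
set_option linter.unusedVariables false
set_option linter.style.haveILetI false

/-!
# Piece F2-AB (helper57, for helper92's S1353 project): the abelian Sylow case
-/

namespace Cfsg.Agent.H57.F2

open Cfsg Subgroup Cfsg.Agent.H92.F2

universe u

theorem ab {G : Type u} [Group G] [Finite G] : StAb G := by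
  intro hG M K U A P R r p _ h hab
  have hr : r.Prime := Fact.out
  have H := Cfsg.Agent.H31.BG14U.hyps hG
  have hE0 : IsComplIn (U ⊔ K) (sigmaCore M) M :=
    Cfsg.Agent.H31.BG14U.compl_UK H.h50 h.coatom h.dec
  obtain ⟨E, hEdef⟩ : ∃ E : Subgroup G, E = U ⊔ K := ⟨_, rfl⟩
  have hE : IsComplIn E (sigmaCore M) M := by rw [hEdef]; exact hE0
  have hAE : A ≤ E := by rw [hEdef]; exact h.AE
  have hEM : E ≤ M := hE.1
  have hPE : P ≤ E := by rw [hEdef]; exact h.PK.trans le_sup_right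
  have h17 := H.h17 M h.coatom r h.tau2 A ⟨hAE.trans hEM, h.Ael, h.Acard⟩
  have h18 := H.h18 M h.coatom E hE r h.tau2 A ⟨hAE, h.Ael, h.Acard⟩
  have hAp : IsPGroup r A := IsPGroup.of_card h.Acard
  obtain ⟨P₀, hAP₀⟩ := Cfsg.Agent.H57.BG12.exists_sylow_map_ge hAp hAE
  obtain ⟨⟨S, hS⟩, hEN, hScomm⟩ := Cfsg.Agent.H31.BG12N.tau2_sylow_normal hG H.h50 H.h16 H.h18
    H.hN h.coatom hE h.tau2 hab P₀
  rw [← hS] at hEN hScomm hAP₀
  have hSE : (S : Subgroup G) ≤ E := by rw [hS]; exact Subgroup.map_subtype_le _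
  have hSM : (S : Subgroup G) ≤ M := hSE.trans hEM
  have hScomm' : ∀ x ∈ (S : Subgroup G), ∀ z ∈ (S : Subgroup G), x * z = z * x := by
    intro x hx z hz
    haveI := hScomm
    exact congrArg Subtype.val (mul_comm' (⟨x, hx⟩ : (S : Subgroup G)) ⟨z, hz⟩)
  -- `S` as a Sylow subgroup of `M`
  have hmap : ((S.subtype hSM : Sylow r M) : Subgroup M).map M.subtype = (S : Subgroup G) := by
    rw [Sylow.coe_subtype]; exact Subgroup.map_subgroupOf_eq_of_le hSM
  have h17b := (h17.2.1 (S.subtype hSM)).2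
  rw [hmap] at h17b
  obtain ⟨hΩ, hNSM⟩ := h17b hAP₀
  -- `r` is not ideal
  have hnotideal : ¬ IsIdealPrime r G := by
    rintro ⟨-, -, hid⟩
    obtain ⟨B, hBS, hBel, hAB⟩ := hid S A hAP₀ h.Ael h.Acard
    have hBA : B ≤ A := fun x hx => (hΩ x (hBS hx)).mp (hBel.2 x hx)
    exact (not_le_of_gt hAB) hBA
  -- the coatom over `N(S)`
  have hA1 : A ≠ ⊥ := by
    intro h0
    have h1 := h.Acard
    rw [h0, Subgroup.card_bot] at h1
    have h2 : 1 < r ^ 2 := Nat.one_lt_pow (by norm_num) hr.one_lt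
    omega
  have hS1 : (S : Subgroup G) ≠ ⊥ := fun h0 => hA1 (le_bot_iff.mp (h0 ▸ hAP₀))
  have hMtop : M ≠ ⊤ := h.coatom.1
  have hS2 : (S : Subgroup G) ≠ ⊤ := fun h0 => hMtop (top_le_iff.mp (h0 ▸ hSM))
  obtain ⟨Ms, hMs, hNMs⟩ := Cfsg.Agent.H57.BG12.exists_coatom_ge
    (Cfsg.Agent.H51.BG10.normalizer_ne_top_of_ne hG hS1 hS2)
  obtain ⟨V, hV⟩ := Cfsg.Agent.H57.NCKill.exists_complIn_normalizer S
  have hSD : (S : Subgroup G) ≤ ⁅Ms, Ms⁆ :=
    ((Cfsg.Agent.S1411.result hG r S V hV).2).trans (Subgroup.commutator_mono hNMs hNMs)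
  have hcomm := Cfsg.Agent.H47.NCKill.comm hG Ms r hMs (fun hβ => hnotideal hβ.2) S hSD
  have hPN : P ≤ normalizer ((S : Subgroup G) : Set G) := hPE.trans hEN
  -- `C_A(P) = R`
  have hRle : R ≤ A ⊓ centralizer (P : Set G) := by
    intro a ha
    refine ⟨h.RA ha, ?_⟩
    show a ∈ centralizer (P : Set G)
    rw [Subgroup.mem_centralizer_iff]
    intro g hg
    exact (Subgroup.mem_centralizer_iff.mp (h.PR hg) a ha).symm
  have hAPR : A ⊓ centralizer (P : Set G) = R := by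
    symm
    apply Subgroup.eq_of_le_of_card_ge hRle
    have h2 : Nat.card (A ⊓ centralizer (P : Set G) : Subgroup G) ∣ r ^ 2 := by
      rw [← h.Acard]; exact Subgroup.card_dvd_of_le inf_le_left
    obtain ⟨j, hj, hj2⟩ := (Nat.dvd_prime_pow hr).mp h2
    have hj1 : j ≠ 2 := by
      rintro rfl
      have h3 : A ⊓ centralizer (P : Set G) = A :=
        Subgroup.eq_of_le_of_card_ge inf_le_left (by rw [hj2, h.Acard])
      apply h.PA
      intro g hg
      rw [Subgroup.mem_centralizer_iff]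
      intro a ha
      have h4 : a ∈ A ⊓ centralizer (P : Set G) := by rw [h3]; exact ha
      exact (Subgroup.mem_centralizer_iff.mp h4.2 g hg).symm
    rw [hj2, h.Rcard]
    calc r ^ j ≤ r ^ 1 := Nat.pow_le_pow_right hr.pos (by omega)
      _ = r := pow_one r
  -- `N(S)` normalizes `R`
  have hkey : ∀ n ∈ normalizer ((S : Subgroup G) : Set G), ∀ a ∈ R, n * a * n⁻¹ ∈ R := by
    intro n hn a ha
    have haS : a ∈ (S : Subgroup G) := hAP₀ (h.RA ha)
    have htS : n * a * n⁻¹ ∈ (S : Subgroup G) := (Subgroup.mem_normalizer_iff.mp hn a).mp haS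
    rw [← hAPR]
    refine ⟨?_, ?_⟩
    · apply (hΩ _ htS).mp
      have h1 : (n * a * n⁻¹) ^ r = n * a ^ r * n⁻¹ := conj_pow
      rw [h1, h.Ael.2 a (h.RA ha)]
      group
    · show n * a * n⁻¹ ∈ centralizer (P : Set G)
      rw [Subgroup.mem_centralizer_iff]
      intro g hg
      have hgN := hPN hg
      have hx1 : g * n * g⁻¹ * n⁻¹ ∈ ⁅Ms, Ms⁆ :=
        Subgroup.commutator_mem_commutator (hNMs hgN) (hNMs hn)
      have hx2 : g * n * g⁻¹ * n⁻¹ ∈ normalizer ((S : Subgroup G) : Set G) :=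
        (normalizer ((S : Subgroup G) : Set G)).mul_mem
          ((normalizer ((S : Subgroup G) : Set G)).mul_mem
            ((normalizer ((S : Subgroup G) : Set G)).mul_mem hgN hn)
            ((normalizer ((S : Subgroup G) : Set G)).inv_mem hgN))
          ((normalizer ((S : Subgroup G) : Set G)).inv_mem hn)
      obtain ⟨c, hc, s, hs, hx⟩ := hcomm _ ⟨hx1, hx2⟩
      have hct : (n * a * n⁻¹) * c = c * (n * a * n⁻¹) :=
        Subgroup.mem_centralizer_iff.mp hc _ htS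
      have hst : s * (n * a * n⁻¹) = (n * a * n⁻¹) * s := hScomm' s hs _ htS
      have hxt : (g * n * g⁻¹ * n⁻¹) * (n * a * n⁻¹) = (n * a * n⁻¹) * (g * n * g⁻¹ * n⁻¹) := by
        rw [hx]
        calc c * s * (n * a * n⁻¹) = c * (s * (n * a * n⁻¹)) := by group
          _ = c * ((n * a * n⁻¹) * s) := by rw [hst]
          _ = (c * (n * a * n⁻¹)) * s := by group
          _ = ((n * a * n⁻¹) * c) * s := by rw [hct]
          _ = (n * a * n⁻¹) * (c * s) := by group
      have hga : g * a * g⁻¹ = a := by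
        have h1 : a * g = g * a := Subgroup.mem_centralizer_iff.mp (h.PR hg) a ha
        rw [← h1]; group
      have h2 : g * (n * a * n⁻¹) * g⁻¹ = n * a * n⁻¹ := by
        calc g * (n * a * n⁻¹) * g⁻¹
            = (g * n * g⁻¹ * n⁻¹) * (n * (g * a * g⁻¹) * n⁻¹) * (g * n * g⁻¹ * n⁻¹)⁻¹ := by group
          _ = (g * n * g⁻¹ * n⁻¹) * (n * a * n⁻¹) * (g * n * g⁻¹ * n⁻¹)⁻¹ := by rw [hga]
          _ = (n * a * n⁻¹) * (g * n * g⁻¹ * n⁻¹) * (g * n * g⁻¹ * n⁻¹)⁻¹ := by rw [hxt]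
          _ = n * a * n⁻¹ := by group
      calc g * (n * a * n⁻¹) = g * (n * a * n⁻¹) * g⁻¹ * g := by group
        _ = n * a * n⁻¹ * g := by rw [h2]
  have hNR : normalizer ((S : Subgroup G) : Set G) ≤ normalizer (R : Set G) := by
    intro n hn
    rw [Subgroup.mem_normalizer_iff]
    intro a
    constructor
    · exact hkey n hn a
    · intro ha
      have h1 := hkey n⁻¹ ((normalizer ((S : Subgroup G) : Set G)).inv_mem hn) _ ha
      have h2 : n⁻¹ * (n * a * n⁻¹) * n⁻¹⁻¹ = a := by group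
      rwa [h2] at h1
  -- `N(R) ≤ M`
  have hR1 : R ≠ ⊥ := by
    intro h0
    have h1 := h.Rcard
    rw [h0, Subgroup.card_bot] at h1
    exact hr.one_lt.ne' h1.symm
  have hR2 : R ≠ ⊤ := fun h0 => hMtop (top_le_iff.mp (h0 ▸ (h.RA.trans (hAE.trans hEM))))
  obtain ⟨L, hL, hNL⟩ := Cfsg.Agent.H57.BG12.exists_coatom_ge
    (Cfsg.Agent.H51.BG10.normalizer_ne_top_of_ne hG hR1 hR2)
  have hLM : L = M := (h18.2.2 R h.RA h.Rcard h.Rfix).2 L hL
    ((Subgroup.centralizer_le_normalizer _).trans hNL)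
  exact hNSM (hNR.trans (hLM ▸ hNL))

example {G : Type u} [Group G] [Finite G] : Cfsg.Agent.H92.F2.StAb G := ab

end Cfsg.Agent.H57.F2
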