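import Mathlib
import Cfsg.Agent.H64.JzDefs
import Cfsg.Agent.S2950
import Cfsg.Agent.S2951
import Cfsg.Agent.S2952
import Cfsg.Agent.H4.JkA
import Cfsg.Agent.H52.SrAsm
import Cfsg.Agent.H73.SrDEC
import Cfsg.Agent.H59.PushKill2
import Cfsg.Agent.H63.SnIfV
import Cfsg.Agent.H14.Thompson
import Cfsg.Agent.H31.X.CharP2
import Cfsg.Agent.Helper55.J48

/-!
# S2953 (team project JY): the clauses for `P = K ⊔ T` from `Base S M T K L`

Each clause of the statement S2953 about `P = K ⊔ T` is a separate theorem: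
`gPC`, `gPS`, `gP6`, `gPZ`, `gPL`; `good` bundles them.
-/

set_option autoImplicit false
open Cfsg

namespace Cfsg.Agent.H57.Jy

open Cfsg.Agent.H64.Jz Cfsg.Agent.H59.PushKill
open scoped commutatorElement

universe u

variable {G : Type u} [Group G] [Finite G]

/-- Common facts of a `Base` configuration. -/
theorem gbasic (S : Sylow 2 G) (M T K L : Subgroup G) (hB : Base S M T K L) :
    IsPGroup 2 ↥T ∧ IsSylowTwoIn T L ∧ K ≤ L ∧ K ⊔ T ≤ L ∧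
    T ≤ Subgroup.normalizer (K : Set G) ∧ pCoreOf 2 L ≤ T ∧ pCoreOf 2 K ≤ T ∧
    Subgroup.centralizer (pCoreOf 2 L : Set G) ≤ pCoreOf 2 L ∧ IsJComponent T K := by
  have hka := Cfsg.Agent.H4.Jk.ka S M T K L hB
  obtain ⟨⟨hL, hN, hZ⟩, hO, hM, hMJ, hT, hTS, hK, hLmax, hKL⟩ := hB
  obtain ⟨⟨hsyl, -, hchar⟩, hOKL, -⟩ := hka
  have hT2 : IsPGroup 2 ↥T := hT.1.1
  have hKL' : K ≤ L := le_sup_left.trans hKL
  have hQT : pCoreOf 2 L ≤ T := Cfsg.Agent.Helper55.J48.pCoreOf_le_of_sylowIn hsyl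
  have hnorm := Cfsg.Agent.S2952.result hL hN hZ hO S M hM hMJ T hT K hK
  have hPK : K ⊔ T ≤ Subgroup.normalizer (K : Set G) :=
    (Subgroup.normal_subgroupOf_iff_le_normalizer le_sup_left).mp hnorm
  exact ⟨hT2, hsyl, hKL', sup_le hKL' hsyl.1, le_sup_right.trans hPK, hQT, hOKL.trans hQT, hchar,
    hK.1.1⟩

/-- A `J(T)`-component is not a 2-group. -/
theorem not_two_group (T K : Subgroup G) (hKc : IsJComponent T K) : ¬ IsPGroup 2 ↥K := by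
  haveI : Fact (Nat.Prime 2) := ⟨Nat.prime_two⟩
  intro hK2
  have h3 : (pCoreOf 2 K).relIndex K = 3 := hKc.2.2.1
  have hdvd : (pCoreOf 2 K).relIndex K ∣ Nat.card ↥K := Subgroup.relIndex_dvd_card _ _
  obtain ⟨n, hn⟩ := IsPGroup.iff_card.mp hK2
  rw [h3, hn] at hdvd
  have h32 : (3 : ℕ) ∣ 2 := Nat.Prime.dvd_of_dvd_pow Nat.prime_three hdvd
  omega

/-- `K` does not normalize `T`. -/
theorem g_not_norm (S : Sylow 2 G) (M T K L : Subgroup G) (hB : Base S M T K L) :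
    ¬ K ≤ Subgroup.normalizer (T : Set G) := by
  obtain ⟨hT2, -, -, -, -, -, -, -, hKc⟩ := gbasic S M T K L hB
  intro hKT
  have hKJ : K ≤ Subgroup.normalizer (thompsonSubgroupOf 2 T : Set G) := by
    intro k hk
    have e1 : T.map (MulAut.conj k).toMonoidHom = T := cj_eq_of_mem_normalizer (hKT hk)
    have e2 : T.map (MulAut.conj k⁻¹).toMonoidHom = T :=
      cj_eq_of_mem_normalizer (hKT (K.inv_mem hk))
    apply mem_normalizer_of_cj_le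
    · show (thompsonSubgroupOf 2 T).map (MulAut.conj k).toMonoidHom ≤ _
      rw [Cfsg.Agent.H14.thompsonSubgroupOf_conj 2 k T, e1]
    · show (thompsonSubgroupOf 2 T).map (MulAut.conj k⁻¹).toMonoidHom ≤ _
      rw [Cfsg.Agent.H14.thompsonSubgroupOf_conj 2 k⁻¹ T, e2]
  have hcomm : ⁅K, thompsonSubgroupOf 2 T⁆ ≤ thompsonSubgroupOf 2 T := by
    rw [Subgroup.commutator_le]
    intro k hk j hj
    have h1 : k * j * k⁻¹ ∈ thompsonSubgroupOf 2 T :=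
      (Subgroup.mem_normalizer_iff.mp (hKJ hk) j).mp hj
    have h2 : ⁅k, j⁆ = (k * j * k⁻¹) * j⁻¹ := by rw [commutatorElement_def]
    rw [h2]
    exact mul_mem h1 (inv_mem hj)
  have hKJ' : K ≤ thompsonSubgroupOf 2 T := by
    have := hcomm
    rwa [hKc.2.1] at this
  exact not_two_group T K hKc (hT2.to_le (hKJ'.trans (Cfsg.Agent.H14.thompsonSubgroupOf_le 2 T)))

/-- (PL): `L` is the unique maximal 2-local over `P`, and `T` is Sylow in it. -/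
theorem gPL (S : Sylow 2 G) (M T K L : Subgroup G) (hB : Base S M T K L) :
    IsMaximalTwoLocal L ∧ K ⊔ T ≤ L ∧ IsSylowTwoIn T L ∧
      ∀ L' : Subgroup G, IsMaximalTwoLocal L' → K ⊔ T ≤ L' → L' = L := by
  obtain ⟨-, hsyl, -, hPL, -⟩ := gbasic S M T K L hB
  obtain ⟨⟨hL, hN, hZ⟩, hO, hM, hMJ, hT, hTS, hK, hLmax, hKL⟩ := hB
  obtain ⟨L₀, -, -, huniq, -, -⟩ := Cfsg.Agent.S2950.result hL hN hZ hO S M hM hMJ T hT K hK
  have hLL₀ : L = L₀ := huniq L hLmax hKL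
  refine ⟨hLmax, hPL, hsyl, ?_⟩
  intro L' hL' hPL'
  have h1 : K ⊔ thompsonSubgroupOf 2 T ≤ L' :=
    (sup_le_sup_left (Cfsg.Agent.H14.thompsonSubgroupOf_le 2 T) K).trans hPL'
  rw [hLL₀]
  exact huniq L' hL' h1

/-- (PS): `T` is a Sylow 2-subgroup of `P`. -/
theorem gPS (S : Sylow 2 G) (M T K L : Subgroup G) (hB : Base S M T K L) :
    IsSylowTwoIn T (K ⊔ T) := by
  obtain ⟨hT2, hsyl, -, hPL, -⟩ := gbasic S M T K L hB
  refine ⟨le_sup_right, hT2, ?_⟩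
  have h := Subgroup.relIndex_mul_relIndex T (K ⊔ T) L le_sup_right hPL
  have hodd : Odd (T.relIndex L) := hsyl.2.2
  rw [← h] at hodd
  exact (Nat.odd_mul.mp hodd).1

/-- (PC): `C_G(O₂(P)) ≤ O₂(P)`. -/
theorem gPC (S : Sylow 2 G) (M T K L : Subgroup G) (hB : Base S M T K L) :
    Subgroup.centralizer (pCoreOf 2 (K ⊔ T) : Set G) ≤ pCoreOf 2 (K ⊔ T) := by
  obtain ⟨hT2, hsyl, -, hPL, -, hQT, -, hchar, -⟩ := gbasic S M T K L hB
  have hQP : pCoreOf 2 L ≤ pCoreOf 2 (K ⊔ T) :=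
    Cfsg.Agent.H31.X.H54.le_pCoreOf (hQT.trans le_sup_right)
      (hPL.trans (Cfsg.Agent.H31.X.H54.le_normalizer_pCoreOf L)) (hT2.to_le hQT)
  exact (Subgroup.centralizer_le (SetLike.coe_subset_coe.mpr hQP)).trans (hchar.trans hQP)

/-- (P6): `|P : O₂(P)| = 6` and `P/O₂(P)` is not abelian. -/
theorem gP6 (S : Sylow 2 G) (M T K L : Subgroup G) (hB : Base S M T K L) :
    (pCoreOf 2 (K ⊔ T)).relIndex (K ⊔ T) = 6 ∧ ¬ ⁅K ⊔ T, K ⊔ T⁆ ≤ pCoreOf 2 (K ⊔ T) := by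
  haveI : Fact (Nat.Prime 2) := ⟨Nat.prime_two⟩
  have hnn := g_not_norm S M T K L hB
  obtain ⟨hT2, -, -, -, hTK, -, hOT, -, hKc⟩ := gbasic S M T K L hB
  have hKP : K ≤ K ⊔ T := le_sup_left
  have hTP : T ≤ K ⊔ T := le_sup_right
  have hOK : pCoreOf 2 K ≤ K := by
    unfold pCoreOf
    exact Subgroup.map_subtype_le _
  obtain ⟨Q, hQT, hPQ, hQ2, hdich⟩ :=
    pstruct K T (pCoreOf 2 K) hT2 hTK hOK hOT hKc.2.2.1 hKc.1
  have hRle : pCoreOf 2 (K ⊔ T) ≤ K ⊔ T := by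
    unfold pCoreOf
    exact Subgroup.map_subtype_le _
  have hR2 : IsPGroup 2 ↥(pCoreOf 2 (K ⊔ T)) := Cfsg.Agent.H31.X.H54.isPGroup_pCoreOf (K ⊔ T)
  have hRQ : pCoreOf 2 (K ⊔ T) ≤ Q := by
    rcases hdich (pCoreOf 2 (K ⊔ T)) hRle (fun x hx => cj_eq_of_mem_normalizer
      (Cfsg.Agent.H31.X.H54.le_normalizer_pCoreOf (K ⊔ T) hx)) with h | h
    · exact h
    · exact absurd (hR2.to_le h) (not_two_group T K hKc)
  have hQR : Q ≤ pCoreOf 2 (K ⊔ T) :=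
    Cfsg.Agent.H31.X.H54.le_pCoreOf (hQT.trans hTP) hPQ (hT2.to_le hQT)
  have hRQeq : pCoreOf 2 (K ⊔ T) = Q := le_antisymm hRQ hQR
  have hPK : K ⊔ T ≤ Subgroup.normalizer (K : Set G) := sup_le Subgroup.le_normalizer hTK
  haveI : (K.subgroupOf (K ⊔ T)).Normal := Subgroup.normal_subgroupOf_of_le_normalizer hPK
  have hsup : K.subgroupOf (K ⊔ T) ⊔ T.subgroupOf (K ⊔ T) = ⊤ := by
    rw [← Subgroup.subgroupOf_sup hKP hTP, Subgroup.subgroupOf_self]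
  have hT0 : IsPGroup 2 (T.subgroupOf (K ⊔ T)) := hT2.comap_subtype
  have h3 : T.relIndex (K ⊔ T) = 3 :=
    index_eq_three (K.subgroupOf (K ⊔ T)) (T.subgroupOf (K ⊔ T))
      ((pCoreOf 2 K).subgroupOf (K ⊔ T)) hsup hT0
      (fun x hx => hOK hx) (fun x hx => hOT hx)
      (by rw [Subgroup.relIndex_subgroupOf hKP]; exact hKc.2.2.1)
  have hQne : ¬ T ≤ Q := by
    intro hTQ
    have hQeq : Q = T := le_antisymm hQT hTQ
    apply hnn
    rw [← hQeq]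
    exact hKP.trans hPQ
  have hQ2' : Q.relIndex T = 2 := by
    have h1 : Q.relIndex T ≠ 1 := fun h => hQne (Subgroup.relIndex_eq_one.mp h)
    have h0 : Q.relIndex T ≠ 0 := Subgroup.index_ne_zero_of_finite
    omega
  refine ⟨?_, ?_⟩
  · rw [hRQeq, ← Subgroup.relIndex_mul_relIndex Q T (K ⊔ T) hQT hTP, hQ2', h3]
  · intro hcomm
    apply hnn
    refine hKP.trans ?_
    intro p hp
    rw [Subgroup.mem_normalizer_iff]
    intro t
    constructor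
    · intro ht
      have hc : ⁅p, t⁆ ∈ pCoreOf 2 (K ⊔ T) :=
        hcomm (Subgroup.commutator_mem_commutator hp (hTP ht))
      have hc' : ⁅p, t⁆ ∈ T := hQT (hRQeq ▸ hc)
      have e : p * t * p⁻¹ = ⁅p, t⁆ * t := by
        rw [commutatorElement_def]; group
      rw [e]
      exact mul_mem hc' ht
    · intro ht
      have hc : ⁅p⁻¹, p * t * p⁻¹⁆ ∈ pCoreOf 2 (K ⊔ T) :=
        hcomm (Subgroup.commutator_mem_commutator (inv_mem hp) (hTP ht))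
      have hc' : ⁅p⁻¹, p * t * p⁻¹⁆ ∈ T := hQT (hRQeq ▸ hc)
      have e : t = ⁅p⁻¹, p * t * p⁻¹⁆ * (p * t * p⁻¹) := by
        rw [commutatorElement_def]; group
      rw [e]
      exact mul_mem hc' ht

/-- (PZ): `Ω₁Z(T)` is not central in `P`. -/
theorem gPZ (S : Sylow 2 G) (M T K L : Subgroup G) (hB : Base S M T K L) :
    ⁅omegaCenterOf T, K ⊔ T⁆ ≠ ⊥ := by
  have hka := Cfsg.Agent.H4.Jk.ka S M T K L hB
  obtain ⟨hT2, hsyl, hKL', -, -, -, -, -, hKc⟩ := gbasic S M T K L hB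
  obtain ⟨⟨hL, hN, hZ⟩, hO, hM, hMJ, hT, hTS, hK, hLmax, hKL⟩ := hB
  have hT1 : T ≠ ⊥ := hT.1.2.1
  have hVL : omegaCenterOf (pCoreOf 2 L) ≤ L := by
    intro x hx
    have h1 := (Cfsg.Agent.H63.Sn.mem_omegaCenterOf (pCoreOf 2 L) hx).1
    have h2 : pCoreOf 2 L ≤ L := by
      unfold pCoreOf
      exact Subgroup.map_subtype_le _
    exact h2 h1
  have hW := (Cfsg.Agent.H52.Sr.comp1 Cfsg.Agent.H73.Sr.dec hL hN hZ T hT2 hT1 L hka.1 hVL K hKc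
    hKL').2.2.2
  obtain ⟨hne, hcl⟩ := Cfsg.Agent.S2951.result hL hN hZ hO S M hM hMJ T hT hTS K hK L hLmax hKL
    (omegaCenterOf (S : Subgroup G)) (omegaCenterOf (thompsonSubgroupOf 2 T)) rfl rfl
  obtain ⟨⟨w, hw⟩, hw1⟩ := (Subgroup.ne_bot_iff_exists_ne_one).mp hne
  have hw1' : w ≠ 1 := fun h => hw1 (Subtype.ext h)
  have hwZ0 : w ∈ omegaCenterOf (thompsonSubgroupOf 2 T) := hw.1
  have key : omegaCenterOf (S : Subgroup G) = omegaCenterOf (thompsonSubgroupOf 2 T) →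
      w ∈ omegaCenterOf T := by
    intro hZ0
    have hwS : w ∈ omegaCenterOf (S : Subgroup G) := hZ0 ▸ hwZ0
    obtain ⟨-, hcS, h2⟩ := Cfsg.Agent.H63.Sn.mem_omegaCenterOf _ hwS
    obtain ⟨hJ, -, -⟩ := Cfsg.Agent.H63.Sn.mem_omegaCenterOf _ hwZ0
    have hwT' : w ∈ T := Cfsg.Agent.H14.thompsonSubgroupOf_le 2 T hJ
    have hcT : w ∈ Subgroup.centralizer (T : Set G) :=
      Subgroup.centralizer_le (SetLike.coe_subset_coe.mpr hTS) hcS
    unfold omegaCenterOf omegaOne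
    exact Subgroup.subset_closure ⟨⟨hwT', hcT⟩, h2⟩
  have hwT : w ∈ omegaCenterOf T := by
    rcases hcl with ⟨hZ0, -⟩ | ⟨hZ0, -, -⟩ | ⟨hZ0, -, -⟩
    · exact key hZ0
    · exact key hZ0
    · exact hZ0 ▸ hwZ0
  intro hbot
  have hwc : w ∈ Subgroup.centralizer (K : Set G) := by
    rw [Subgroup.mem_centralizer_iff]
    intro k hk
    have h1 : ⁅w, k⁆ ∈ ⁅omegaCenterOf T, K ⊔ T⁆ :=
      Subgroup.commutator_mem_commutator hwT ((le_sup_left : K ≤ K ⊔ T) hk)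
    rw [hbot, Subgroup.mem_bot] at h1
    exact (commutatorElement_eq_one_iff_mul_comm.mp h1).symm
  have hmem : w ∈ wOf K ⊓ Subgroup.centralizer (K : Set G) := ⟨hw.2, hwc⟩
  rw [hW, Subgroup.mem_bot] at hmem
  exact hw1' hmem

/-- All the clauses of S2953 for `P = K ⊔ T`. -/
theorem good (S : Sylow 2 G) (M T K L : Subgroup G) (hB : Base S M T K L) :
    Subgroup.centralizer (pCoreOf 2 (K ⊔ T) : Set G) ≤ pCoreOf 2 (K ⊔ T) ∧
    IsSylowTwoIn T (K ⊔ T) ∧ (pCoreOf 2 (K ⊔ T)).relIndex (K ⊔ T) = 6 ∧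
    ¬ ⁅K ⊔ T, K ⊔ T⁆ ≤ pCoreOf 2 (K ⊔ T) ∧ ⁅omegaCenterOf T, K ⊔ T⁆ ≠ ⊥ ∧
    ∃ L₀ : Subgroup G, IsMaximalTwoLocal L₀ ∧ K ⊔ T ≤ L₀ ∧ IsSylowTwoIn T L₀ ∧
      ∀ L' : Subgroup G, IsMaximalTwoLocal L' → K ⊔ T ≤ L' → L' = L₀ :=
  ⟨gPC S M T K L hB, gPS S M T K L hB, (gP6 S M T K L hB).1, (gP6 S M T K L hB).2,
    gPZ S M T K L hB, L, gPL S M T K L hB⟩

end Cfsg.Agent.H57.Jy
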