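import Mathlib
import Cfsg.Agent.H57.JyGood
import Cfsg.Agent.H97.JyPFacts

/-!
# S2953 (team project JX, the kill): the `P`-side input of the case `V ⊄ Q₁`

For `Base S M T K L`, with `D := O₂(K ⊔ T)`: `D` has index at most 2 in `T`, every element of
`T` outside `D` inverts `K` modulo `D`, and `K` has an element of order dividing 3 outside `M`.
-/

set_option autoImplicit false
open Cfsg

namespace Cfsg.Agent.H57.Jx

open Cfsg.Agent.H64.Jz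

universe u

/-- The `P`-side facts, explicit form. -/
theorem pside_explicit {G : Type u} [Group G] [Finite G] (S : Sylow 2 G) (M T K L : Subgroup G)
    (hB : Base S M T K L) :
    (∀ a ∈ T, ∀ b ∈ T, a ∉ pCoreOf 2 (K ⊔ T) → b ∉ pCoreOf 2 (K ⊔ T) →
      a * b ∈ pCoreOf 2 (K ⊔ T)) ∧
    (∀ x ∈ T, x ∉ pCoreOf 2 (K ⊔ T) → ∀ g ∈ K, x * g * x⁻¹ * g ∈ pCoreOf 2 (K ⊔ T)) ∧
    ∃ k ∈ K, k ^ 3 = 1 ∧ k ∉ M := by
  obtain ⟨hT2, -, -, -, hTK, -, hOT, -, hKc⟩ := Cfsg.Agent.H57.Jy.gbasic S M T K L hB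
  obtain ⟨-, -, -, -, hT, -, hK, -, -⟩ := hB
  have hTM : T ≤ M := hT.1.2.2.1
  have hKM : ¬ K ≤ M := hK.2.1
  have hOK : pCoreOf 2 K ≤ K := by
    unfold pCoreOf
    exact Subgroup.map_subtype_le _
  have hOnK : K ≤ Subgroup.normalizer (pCoreOf 2 K : Set G) :=
    Cfsg.Agent.H31.X.H54.le_normalizer_pCoreOf K
  have hOnT : T ≤ Subgroup.normalizer (pCoreOf 2 K : Set G) :=
    hTK.trans (Cfsg.Agent.H31.X.H54.normalizer_le_normalizer_pCoreOf K)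
  obtain ⟨D, k, hDT, hOD, hKD, hTD, hidx, hinv, -, -, hkK, -, hk3, hgen, -⟩ :=
    Cfsg.Agent.H97.Jy.pfacts K T (pCoreOf 2 K) hT2 hTK hOK hOT hKc.2.2.1 hOnK hOnT hKc.1
  have hDR : D ≤ pCoreOf 2 (K ⊔ T) :=
    Cfsg.Agent.H31.X.H54.le_pCoreOf (hDT.trans le_sup_right) (sup_le hKD hTD) (hT2.to_le hDT)
  refine ⟨fun a ha b hb haD hbD =>
      hDR (hidx a ha b hb (fun h => haD (hDR h)) (fun h => hbD (hDR h))),
    fun x hx hxD g hg => hDR (hOD (hinv x hx (fun h => hxD (hDR h)) g hg)),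
    k, hkK, hk3, ?_⟩
  intro hkM
  apply hKM
  intro g hg
  obtain ⟨o, ho, i, rfl⟩ := hgen g hg
  exact mul_mem (hTM (hOT ho)) (pow_mem hkM i)

/-- The `P`-side facts, in the shape of helper52's `StPSide` (post 11203). -/
theorem pside : ∀ {G : Type u} [Group G] [Finite G] (S : Sylow 2 G) (M T K L : Subgroup G),
    Cfsg.Agent.H64.Jz.Base S M T K L →
    (∀ a ∈ T, ∀ b ∈ T, a ∉ pCoreOf 2 (K ⊔ T) → b ∉ pCoreOf 2 (K ⊔ T) →
      a * b ∈ pCoreOf 2 (K ⊔ T)) ∧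
    (∀ x ∈ T, x ∉ pCoreOf 2 (K ⊔ T) → ∀ g ∈ K, x * g * x⁻¹ * g ∈ pCoreOf 2 (K ⊔ T)) ∧
    ∃ k ∈ K, k ^ 3 = 1 ∧ k ∉ M :=
  fun S M T K L hB => pside_explicit S M T K L hB

end Cfsg.Agent.H57.Jx

#print axioms Cfsg.Agent.H57.Jx.pside
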