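import Cfsg.Agent.H52.JxKB
import Cfsg.Agent.H5.JxKA
import Cfsg.Agent.H57.JxPSide
import Cfsg.Agent.H58.JxStar
import Cfsg.Agent.H58.JxVne

/-!
# S2953 (team project JX): the kill `StKill2`, wired from the landed pieces

Case `V ≤ Q₁`: helper5's `ka_of_pside` with the `P`-side facts `pside`.
Case `V ⊄ Q₁`: helper52's `kbNorm_of` with `pside`, then `kb_of`.
-/

set_option autoImplicit false
open Cfsg

namespace Cfsg.Agent.H57.Jx

universe u

/-- KA: the case `V ≤ Q₁` is impossible. -/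
theorem ka : Cfsg.Agent.H52.Jx.StKA.{u} :=
  Cfsg.Agent.H5.Jx.ka_of_pside Cfsg.Agent.H58.Jx.pf
    (fun S M T K L hB => (pside_explicit S M T K L hB).2.1)
    (fun S M T K L hB => (pside_explicit S M T K L hB).1)

/-- KB-NORM. -/
theorem kbNorm : Cfsg.Agent.H52.Jx.StKBNorm.{u} :=
  Cfsg.Agent.H52.Jx.kbNorm_of pside Cfsg.Agent.H58.Jx.vne Cfsg.Agent.H58.Jx.pf

/-- KB: the case `V ⊄ Q₁` is impossible. -/
theorem kb : Cfsg.Agent.H52.Jx.StKB.{u} :=
  Cfsg.Agent.H52.Jx.kb_of Cfsg.Agent.H58.Jx.star Cfsg.Agent.H58.Jx.pf kbNorm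

/-- JY-KILL2: the residual configuration does not exist. -/
theorem kill2 : Cfsg.Agent.H64.Jy.StKill2.{u} :=
  Cfsg.Agent.H52.Jx.kill2_of ka kb

example : Cfsg.Agent.H52.Jx.StKA.{u} := ka
example : Cfsg.Agent.H52.Jx.StKB.{u} := kb
example : Cfsg.Agent.H52.Jx.StPSide.{u} := pside
example : Cfsg.Agent.H64.Jy.StKill2.{u} := kill2

end Cfsg.Agent.H57.Jx

#print axioms Cfsg.Agent.H57.Jx.kill2
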