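import Cfsg.Agent.H57.JyGood
import Cfsg.Agent.H64.JyDefs
import Cfsg.Agent.H52.JwDefs

/-!
# S2953: the per-`P` clauses in the exact shapes of `H64.JyDefs` (JY-GOODA/B/C, JY-GOOD) and of
`H52.JwDefs` (W-PC, W-PS, W-P6, W-PZ, W-PL)
-/

set_option autoImplicit false
open Cfsg

namespace Cfsg.Agent.H57.Jy

universe u

/-- JY-GOODA. -/
theorem goodA : Cfsg.Agent.H64.Jy.StGoodA.{u} := fun S M T K L hB =>
  ⟨gPC S M T K L hB, gPS S M T K L hB, L, gPL S M T K L hB⟩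

/-- JY-GOODB. -/
theorem goodB : Cfsg.Agent.H64.Jy.StGoodB.{u} := fun S M T K L hB => gP6 S M T K L hB

/-- JY-GOODC. -/
theorem goodC : Cfsg.Agent.H64.Jy.StGoodC.{u} := fun S M T K L hB => gPZ S M T K L hB

/-- JY-GOOD. -/
theorem goodSt : Cfsg.Agent.H64.Jy.StGood.{u} := Cfsg.Agent.H64.Jy.good_of goodA goodB goodC

/-- W-PC. -/
theorem wPC : Cfsg.Agent.H52.Jw.StPC.{u} := fun S M T K L hB => gPC S M T K L hB

/-- W-PS. -/
theorem wPS : Cfsg.Agent.H52.Jw.StPS.{u} := fun S M T K L hB => gPS S M T K L hB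

/-- W-P6. -/
theorem wP6 : Cfsg.Agent.H52.Jw.StP6.{u} := fun S M T K L hB => gP6 S M T K L hB

/-- W-PZ. -/
theorem wPZ : Cfsg.Agent.H52.Jw.StPZ.{u} := fun S M T K L hB => gPZ S M T K L hB

/-- W-PL. -/
theorem wPL : Cfsg.Agent.H52.Jw.StPL.{u} := fun S M T K L hB => (gPL S M T K L hB).2

example : Cfsg.Agent.H64.Jy.StGoodA.{u} := goodA
example : Cfsg.Agent.H64.Jy.StGoodB.{u} := goodB
example : Cfsg.Agent.H64.Jy.StGoodC.{u} := goodC
example : Cfsg.Agent.H64.Jy.StGood.{u} := goodSt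
example : Cfsg.Agent.H52.Jw.StPC.{u} := wPC
example : Cfsg.Agent.H52.Jw.StPS.{u} := wPS
example : Cfsg.Agent.H52.Jw.StP6.{u} := wP6
example : Cfsg.Agent.H52.Jw.StPZ.{u} := wPZ
example : Cfsg.Agent.H52.Jw.StPL.{u} := wPL

end Cfsg.Agent.H57.Jy

#print axioms Cfsg.Agent.H57.Jy.goodSt
#print axioms Cfsg.Agent.H57.Jy.wPL
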