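import Mathlib
import Cfsg.Agent.H76.NCKillDefs

set_option autoImplicit false
set_option linter.unusedVariables false
set_option linter.style.haveILetI false

/-!
# Piece NCK-RK2 (helper57, for helper76's NCK sub-project of S1353 / S1354)
-/

namespace Cfsg.Agent.H57.NCKill

open Cfsg Subgroup Cfsg.Agent.H76.NCKill

universe u

theorem rk2 {G : Type u} [Group G] [Finite G] : StRk2 G := by
  intro r _ S a A' haA' hA'S hA'card hSN hTcomm hΩ B hBcomm hBexp
  have hr : r.Prime := Fact.out
  obtain ⟨B', hB'⟩ : ∃ B' : Subgroup G, B' = B.map (S : Subgroup G).subtype := ⟨_, rfl⟩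
  have hB'S : B' ≤ (S : Subgroup G) := by rw [hB']; exact Subgroup.map_subtype_le B
  have hB'card : Nat.card B' = Nat.card B := by
    rw [hB']; exact Subgroup.card_map_of_injective (S : Subgroup G).subtype_injective
  have hB'comm : ∀ x ∈ B', ∀ y ∈ B', x * y = y * x := by
    rw [hB']
    rintro _ ⟨x, hx, rfl⟩ _ ⟨y, hy, rfl⟩
    have h1 := mul_comm' (⟨x, hx⟩ : B) ⟨y, hy⟩
    have h2 : x * y = y * x := congrArg Subtype.val h1
    exact congrArg Subtype.val h2
  have hB'exp : ∀ x ∈ B', x ^ r = 1 := by
    rw [hB']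
    rintro _ ⟨x, hx, rfl⟩
    have h1 := hBexp x hx
    have h2 : ((x ^ r : ↥(S : Subgroup G)) : G) = 1 := by rw [h1]; rfl
    simpa using h2
  rw [← hB'card]
  by_cases hcase : B' ≤ centralizer ({a} : Set G)
  · have hBA : B' ≤ A' := fun x hx => hΩ x ⟨hB'S hx, hcase hx⟩ (hB'exp x hx)
    calc Nat.card B' ≤ Nat.card A' := Subgroup.card_le_of_le hBA
      _ = r ^ 2 := hA'card
  · obtain ⟨y, hyB, hyC⟩ := SetLike.not_le_iff_exists.mp hcase
    have hya : a * y ≠ y * a := by
      intro h
      apply hyC
      rw [Subgroup.mem_centralizer_iff]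
      intro z hz
      rw [Set.mem_singleton_iff] at hz
      rw [hz]; exact h
    have ha1 : a ≠ 1 := by
      rintro rfl
      exact hya (by rw [one_mul, mul_one])
    obtain ⟨T, hT⟩ : ∃ T : Subgroup G, T = (S : Subgroup G) ⊓ centralizer ({a} : Set G) :=
      ⟨_, rfl⟩
    rw [← hT] at hΩ
    have hmemT : ∀ z : G, z ∈ (S : Subgroup G) → a * z = z * a → z ∈ T := by
      intro z hz hza
      rw [hT]
      refine ⟨hz, ?_⟩
      show z ∈ centralizer ({a} : Set G)
      rw [Subgroup.mem_centralizer_iff]
      intro w hw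
      rw [Set.mem_singleton_iff] at hw
      rw [hw]; exact hza
    -- the index of `T` in `S` is at most `r`
    have hidx : T.relIndex (S : Subgroup G) ≤ r := by
      classical
      have hmem : ∀ q : ↥(S : Subgroup G) ⧸ T.subgroupOf (S : Subgroup G),
          ((q.out : ↥(S : Subgroup G)) : G) * a * ((q.out : ↥(S : Subgroup G)) : G)⁻¹ ∈ A' :=
        fun q => (Subgroup.mem_normalizer_iff.mp (hSN q.out.2) a).mp haA'
      let φ : (↥(S : Subgroup G) ⧸ T.subgroupOf (S : Subgroup G)) → ↥A' := fun q => ⟨_, hmem q⟩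
      have hφinj : Function.Injective φ := by
        intro q q' h
        have h1 : ((q.out : ↥(S : Subgroup G)) : G) * a * ((q.out : ↥(S : Subgroup G)) : G)⁻¹ =
            ((q'.out : ↥(S : Subgroup G)) : G) * a * ((q'.out : ↥(S : Subgroup G)) : G)⁻¹ :=
          congrArg Subtype.val h
        have h2 : (QuotientGroup.mk q.out : ↥(S : Subgroup G) ⧸ T.subgroupOf (S : Subgroup G)) =
            QuotientGroup.mk q'.out := by
          rw [QuotientGroup.eq, Subgroup.mem_subgroupOf]
          apply hmemT _ (q.out⁻¹ * q'.out).2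
          show a * (((q.out : ↥(S : Subgroup G)) : G)⁻¹ * ((q'.out : ↥(S : Subgroup G)) : G)) =
            ((q.out : ↥(S : Subgroup G)) : G)⁻¹ * ((q'.out : ↥(S : Subgroup G)) : G) * a
          generalize ((q.out : ↥(S : Subgroup G)) : G) = x at h1 ⊢
          generalize ((q'.out : ↥(S : Subgroup G)) : G) = x' at h1 ⊢
          calc a * (x⁻¹ * x') = x⁻¹ * (x * a * x⁻¹) * x' := by group
            _ = x⁻¹ * (x' * a * x'⁻¹) * x' := by rw [h1]
            _ = x⁻¹ * x' * a := by group
        calc q = QuotientGroup.mk q.out := (QuotientGroup.out_eq' q).symm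
          _ = QuotientGroup.mk q'.out := h2
          _ = q' := QuotientGroup.out_eq' q'
      have hφns : ¬ Function.Surjective φ := by
        intro hs
        obtain ⟨q, hq⟩ := hs ⟨1, A'.one_mem⟩
        have h1 : ((q.out : ↥(S : Subgroup G)) : G) * a * ((q.out : ↥(S : Subgroup G)) : G)⁻¹ = 1 :=
          congrArg Subtype.val hq
        apply ha1
        generalize ((q.out : ↥(S : Subgroup G)) : G) = x at h1
        calc a = x⁻¹ * (x * a * x⁻¹) * x := by group
          _ = 1 := by rw [h1]; group
      have hlt : Nat.card (↥(S : Subgroup G) ⧸ T.subgroupOf (S : Subgroup G)) < Nat.card ↥A' := by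
        have := Fintype.ofFinite (↥(S : Subgroup G) ⧸ T.subgroupOf (S : Subgroup G))
        have := Fintype.ofFinite ↥A'
        rw [Nat.card_eq_fintype_card, Nat.card_eq_fintype_card]
        exact Fintype.card_lt_of_injective_not_surjective φ hφinj hφns
      have hdvd : T.relIndex (S : Subgroup G) ∣ Nat.card (S : Subgroup G) :=
        Subgroup.relIndex_dvd_card T (S : Subgroup G)
      obtain ⟨n, hn⟩ := S.isPGroup'.exists_card_eq
      rw [hn] at hdvd
      obtain ⟨j, hj, hj2⟩ := (Nat.dvd_prime_pow hr).mp hdvd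
      have hlt' : r ^ j < r ^ 2 := by
        rw [← hj2, ← hA'card]; exact hlt
      have hj1 : j < 2 := (Nat.pow_lt_pow_iff_right hr.one_lt).mp hlt'
      rw [hj2]
      calc r ^ j ≤ r ^ 1 := Nat.pow_le_pow_right hr.pos (by omega)
        _ = r := pow_one r
    -- `B' ⊓ T` is small
    have hBT : Nat.card (B' ⊓ T : Subgroup G) ≤ r := by
      have h1 : B' ⊓ T ≤ A' ⊓ centralizer ({y} : Set G) := by
        intro x hx
        refine ⟨hΩ x hx.2 (hB'exp x hx.1), ?_⟩
        show x ∈ centralizer ({y} : Set G)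
        rw [Subgroup.mem_centralizer_iff]
        intro z hz
        rw [Set.mem_singleton_iff] at hz
        rw [hz]; exact hB'comm y hyB x hx.1
      have h2 : Nat.card (A' ⊓ centralizer ({y} : Set G) : Subgroup G) ∣ r ^ 2 := by
        rw [← hA'card]; exact Subgroup.card_dvd_of_le inf_le_left
      obtain ⟨j, hj, hj2⟩ := (Nat.dvd_prime_pow hr).mp h2
      have hj1 : j ≠ 2 := by
        rintro rfl
        have h3 : A' ⊓ centralizer ({y} : Set G) = A' :=
          Subgroup.eq_of_le_of_card_ge inf_le_left (by rw [hj2, hA'card])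
        have h4 : a ∈ A' ⊓ centralizer ({y} : Set G) := by rw [h3]; exact haA'
        have h5 := Subgroup.mem_centralizer_iff.mp h4.2 y rfl
        exact hya h5.symm
      calc Nat.card (B' ⊓ T : Subgroup G)
          ≤ Nat.card (A' ⊓ centralizer ({y} : Set G) : Subgroup G) := Subgroup.card_le_of_le h1
        _ = r ^ j := hj2
        _ ≤ r ^ 1 := Nat.pow_le_pow_right hr.pos (by omega)
        _ = r := pow_one r
    have h1 : Nat.card (B' ⊓ T : Subgroup G) * T.relIndex B' = Nat.card B' := by
      have h2 := Subgroup.relIndex_mul_relIndex (H := (⊥ : Subgroup G)) (K := B' ⊓ T) (L := B')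
        bot_le inf_le_left
      rw [Subgroup.relIndex_bot_left, Subgroup.relIndex_bot_left, Subgroup.inf_relIndex_left] at h2
      exact h2
    have h2 : T.relIndex B' ≤ T.relIndex (S : Subgroup G) :=
      Subgroup.relIndex_le_of_le_right hB'S (fun h => by
        have h3 := Subgroup.relIndex_dvd_card T (S : Subgroup G)
        rw [h] at h3
        exact Nat.card_pos.ne' (Nat.eq_zero_of_zero_dvd h3))
    calc Nat.card B' = Nat.card (B' ⊓ T : Subgroup G) * T.relIndex B' := h1.symm
      _ ≤ r * r := Nat.mul_le_mul hBT (h2.trans hidx)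
      _ = r ^ 2 := (sq r).symm

example {G : Type u} [Group G] [Finite G] : Cfsg.Agent.H76.NCKill.StRk2 G := rk2

end Cfsg.Agent.H57.NCKill
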