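import Mathlib
import Cfsg.Agent.H14.GReplace

/-!
# `p`-real-free groups (helper57)

`RF p G`: no nontrivial `p`-element of `G` is conjugate to its inverse.  Basic closure
properties: a `2`-element normalizing a `p`-subgroup centralizes it, and real-freeness passes to
quotients by normal `p`-subgroups.
-/

set_option autoImplicit false
set_option linter.unusedSectionVars false
set_option linter.unusedVariables false

namespace Cfsg.Agent.H57.RF

section Real

variable {G : Type*} [Group G]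

/-- No nontrivial `p`-element of `M` is inverted by an element of `M`. -/
def RFin (p : ℕ) (M : Subgroup G) : Prop :=
  ∀ x ∈ M, ∀ g ∈ M, (∃ k : ℕ, x ^ p ^ k = 1) → g * x * g⁻¹ = x⁻¹ → x = 1

/-- `G` is `p`-real-free. -/
def RF (p : ℕ) (G : Type*) [Group G] : Prop :=
  ∀ x g : G, (∃ k : ℕ, x ^ p ^ k = 1) → g * x * g⁻¹ = x⁻¹ → x = 1

theorem rf_subtype {p : ℕ} {M : Subgroup G} (h : RFin p M) : RF p ↥M := by
  intro x g ⟨k, hk⟩ hinv
  have h1 := h x x.2 g g.2 ⟨k, by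
    have := congrArg Subtype.val hk
    simpa using this⟩ (by
    have := congrArg Subtype.val hinv
    simpa using this)
  exact Subtype.ext h1

theorem rfin_of_rf {p : ℕ} {M : Subgroup G} (h : RF p ↥M) : RFin p M := by
  intro x hx g hg ⟨k, hk⟩ hinv
  have h1 := h ⟨x, hx⟩ ⟨g, hg⟩ ⟨k, Subtype.ext (by simpa using hk)⟩
    (Subtype.ext (by simpa using hinv))
  simpa using congrArg Subtype.val h1

theorem rfin_top {p : ℕ} (h : RF p G) : RFin p (⊤ : Subgroup G) :=
  fun x _ g _ hk hinv => h x g hk hinv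

theorem rf_of_rfin_top {p : ℕ} (h : RFin p (⊤ : Subgroup G)) : RF p G :=
  fun x g hk hinv => h x (Subgroup.mem_top x) g (Subgroup.mem_top g) hk hinv

theorem RFin.mono {p : ℕ} {M N : Subgroup G} (h : RFin p N) (hMN : M ≤ N) : RFin p M :=
  fun x hx g hg hk hinv => h x (hMN hx) g (hMN hg) hk hinv

theorem isPGroup_zpowers' {p : ℕ} {y : G} {k : ℕ} (h : y ^ p ^ k = 1) :
    IsPGroup p (Subgroup.zpowers y) := by
  rintro ⟨z, hz⟩
  obtain ⟨i, rfl⟩ := Subgroup.mem_zpowers_iff.mp hz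
  refine ⟨k, Subtype.ext ?_⟩
  rw [Subgroup.coe_pow, Subgroup.coe_one, ← zpow_natCast, ← zpow_mul, mul_comm, zpow_mul,
    zpow_natCast, h, one_zpow]

/-- In a `p`-real-free group, a `2`-element normalizing a `p`-subgroup centralizes it. -/
theorem centralizes_of_two_elt {p : ℕ} {M : Subgroup G} (hM : RFin p M) {P : Subgroup G}
    (hP : IsPGroup p P) (hPM : P ≤ M) :
    ∀ (m : ℕ) (u : G), u ∈ M → u ∈ Subgroup.normalizer (P : Set G) → u ^ 2 ^ m = 1 →
      ∀ y ∈ P, u * y * u⁻¹ = y := by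
  intro m
  induction m with
  | zero =>
    intro u _ _ hu y _
    rw [pow_zero, pow_one] at hu
    rw [hu]; group
  | succ m ih =>
    intro u huM hun hu y hy
    have h2 := ih (u * u) (M.mul_mem huM huM) (Subgroup.mul_mem _ hun hun)
      (by rw [← pow_two, ← pow_mul, ← pow_succ']; exact hu) y hy
    have hcy : u * y * u⁻¹ ∈ P := (Subgroup.mem_normalizer_iff.mp hun y).mp hy
    have hwP : y⁻¹ * (u * y * u⁻¹) ∈ P := P.mul_mem (P.inv_mem hy) hcy
    obtain ⟨k, hk⟩ := hP ⟨_, hwP⟩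
    have hk' : (y⁻¹ * (u * y * u⁻¹)) ^ p ^ k = 1 := by
      have := congrArg Subtype.val hk
      simpa using this
    have hw : u * (y⁻¹ * (u * y * u⁻¹)) * u⁻¹ = (y⁻¹ * (u * y * u⁻¹))⁻¹ := by
      have e : u * (y⁻¹ * (u * y * u⁻¹)) * u⁻¹ =
          (u * y * u⁻¹)⁻¹ * ((u * u) * y * (u * u)⁻¹) := by group
      rw [e, h2]; group
    have h1 := hM _ (hPM hwP) u huM ⟨k, hk'⟩ hw
    calc u * y * u⁻¹ = y * (y⁻¹ * (u * y * u⁻¹)) := by group
      _ = y := by rw [h1, mul_one]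

theorem conj_pow_odd_inv {c a : G} (h : c * a * c⁻¹ = a⁻¹) {m : ℕ} (hm : Odd m) :
    c ^ m * a * (c ^ m)⁻¹ = a⁻¹ := by
  obtain ⟨j, rfl⟩ := hm
  have h2 : (c * c) * a * (c * c)⁻¹ = a := by
    have e : (c * c) * a * (c * c)⁻¹ = c * (c * a * c⁻¹) * c⁻¹ := by group
    rw [e, h]
    have e2 : c * a⁻¹ * c⁻¹ = (c * a * c⁻¹)⁻¹ := by group
    rw [e2, h, inv_inv]
  have h3 : ∀ i : ℕ, (c * c) ^ i * a * ((c * c) ^ i)⁻¹ = a := by
    intro i
    induction i with
    | zero => simp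
    | succ i ih =>
      have e : (c * c) ^ (i + 1) * a * ((c * c) ^ (i + 1))⁻¹ =
          (c * c) ^ i * ((c * c) * a * (c * c)⁻¹) * ((c * c) ^ i)⁻¹ := by
        rw [pow_succ]; group
      rw [e, h2, ih]
  have e : c ^ (2 * j + 1) = (c * c) ^ j * c := by rw [pow_succ, pow_mul, pow_two]
  rw [e]
  have e3 : (c * c) ^ j * c * a * ((c * c) ^ j * c)⁻¹ =
      (c * c) ^ j * (c * a * c⁻¹) * ((c * c) ^ j)⁻¹ := by group
  rw [e3, h]
  have e4 : (c * c) ^ j * a⁻¹ * ((c * c) ^ j)⁻¹ = ((c * c) ^ j * a * ((c * c) ^ j)⁻¹)⁻¹ := by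
    group
  rw [e4, h3]

/-- Lifting: in a `p`-real-free subgroup `M ≥ R` (`R` a normal `p`-subgroup, `p` odd), an
element that is a `p`-element modulo `R` and is inverted modulo `R` lies in `R`. -/
theorem mem_of_inverted_mod {p : ℕ} [Fact p.Prime] [Finite G] (hp2 : p ≠ 2) {M : Subgroup G}
    (hM : RFin p M) (R : Subgroup G) [hRn : R.Normal] (hRp : IsPGroup p R) (hRM : R ≤ M)
    {x g : G} (hx : x ∈ M) (hg : g ∈ M) (hxp : ∃ k : ℕ, x ^ p ^ k ∈ R)
    (hinv : g * x * g⁻¹ * x ∈ R) : x ∈ R := by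
  obtain ⟨k, hk⟩ := hxp
  obtain ⟨π, hπ⟩ : ∃ π : G →* G ⧸ R, π = QuotientGroup.mk' R := ⟨_, rfl⟩
  have hπ1 : ∀ z : G, π z = 1 ↔ z ∈ R := by
    intro z
    rw [hπ]
    exact QuotientGroup.eq_one_iff z
  have hπx : π x ^ p ^ k = 1 := by rw [← map_pow]; exact (hπ1 _).mpr hk
  have hπinv : π g * π x * (π g)⁻¹ = (π x)⁻¹ := by
    have : π (g * x * g⁻¹ * x) = 1 := (hπ1 _).mpr hinv
    rw [map_mul, map_mul, map_mul, map_inv] at this
    exact eq_inv_of_mul_eq_one_left this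
  -- the p-group P
  obtain ⟨P, hPdef⟩ : ∃ P : Subgroup G, P = (Subgroup.zpowers (π x)).comap π := ⟨_, rfl⟩
  have hPp : IsPGroup p P := by
    rw [hPdef]
    apply IsPGroup.comap_of_ker_isPGroup (isPGroup_zpowers' hπx)
    rw [hπ, QuotientGroup.ker_mk']
    exact hRp
  have hxP : x ∈ P := by
    rw [hPdef]
    exact Subgroup.mem_comap.mpr (Subgroup.mem_zpowers _)
  have hPM : P ≤ M := by
    intro y hy
    rw [hPdef] at hy
    obtain ⟨i, hi⟩ := Subgroup.mem_zpowers_iff.mp (Subgroup.mem_comap.mp hy)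
    have h1 : (x ^ i)⁻¹ * y ∈ R := by
      rw [← hπ1, map_mul, map_inv, map_zpow, hi, inv_mul_cancel]
    have : y = x ^ i * ((x ^ i)⁻¹ * y) := by group
    rw [this]
    exact M.mul_mem (M.zpow_mem hx i) (hRM h1)
  have hgP : g ∈ Subgroup.normalizer (P : Set G) := by
    apply Cfsg.Agent.H14.mem_normalizer_of_conj_mem
    intro y hy
    rw [hPdef] at hy ⊢
    obtain ⟨i, hi⟩ := Subgroup.mem_zpowers_iff.mp (Subgroup.mem_comap.mp hy)
    rw [Subgroup.mem_comap, map_mul, map_mul, map_inv, ← hi]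
    have : π g * π x ^ i * (π g)⁻¹ = (π x)⁻¹ ^ i := by
      rw [← hπinv, conj_zpow]
    rw [this]
    exact Subgroup.zpow_mem _ (Subgroup.inv_mem _ (Subgroup.mem_zpowers _)) i
  -- the 2-part of g
  obtain ⟨e, m, hm, hgm⟩ := Nat.exists_eq_two_pow_mul_odd (orderOf_pos g).ne'
  obtain ⟨u, hu⟩ : ∃ u : G, u = g ^ m := ⟨_, rfl⟩
  have hu2 : u ^ 2 ^ e = 1 := by
    rw [hu, ← pow_mul, mul_comm, ← hgm, pow_orderOf_eq_one]
  have huM : u ∈ M := by rw [hu]; exact M.pow_mem hg m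
  have huP : u ∈ Subgroup.normalizer (P : Set G) := by rw [hu]; exact Subgroup.pow_mem _ hgP m
  have hcent := centralizes_of_two_elt hM hPp hPM e u huM huP hu2 x hxP
  have hπu : π u * π x * (π u)⁻¹ = (π x)⁻¹ := by
    rw [hu, map_pow]; exact conj_pow_odd_inv hπinv hm
  have hπ2 : π x = (π x)⁻¹ := by
    rw [← hπu, ← map_inv, ← map_mul, ← map_mul, hcent]
  have hsq : π x ^ 2 = 1 := by
    rw [pow_two]
    have : π x * π x = (π x)⁻¹ * π x := by rw [← hπ2]
    rw [this, inv_mul_cancel]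
  have hord : orderOf (π x) = 1 := by
    have h1 : orderOf (π x) ∣ 2 := orderOf_dvd_of_pow_eq_one hsq
    have h2 : orderOf (π x) ∣ p ^ k := orderOf_dvd_of_pow_eq_one hπx
    have hcop : Nat.Coprime 2 (p ^ k) := by
      apply Nat.Coprime.pow_right
      rw [Nat.coprime_primes Nat.prime_two (Fact.out : p.Prime)]
      exact fun h => hp2 h.symm
    have h3 := Nat.dvd_gcd h1 h2
    rw [Nat.Coprime.gcd_eq_one hcop] at h3
    exact Nat.dvd_one.mp h3
  exact (hπ1 x).mp (orderOf_eq_one_iff.mp hord)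

/-- Real-freeness passes to quotients by normal `p`-subgroups (`p` odd). -/
theorem rf_quotient {p : ℕ} [Fact p.Prime] [Finite G] (hp2 : p ≠ 2) (h : RF p G)
    (N : Subgroup G) [N.Normal] (hN : IsPGroup p N) : RF p (G ⧸ N) := by
  intro xb gb ⟨k, hk⟩ hinv
  obtain ⟨x, rfl⟩ := QuotientGroup.mk'_surjective N xb
  obtain ⟨g, rfl⟩ := QuotientGroup.mk'_surjective N gb
  have h1 : x ∈ N := by
    apply mem_of_inverted_mod hp2 (rfin_top h) N hN le_top (Subgroup.mem_top x)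
      (Subgroup.mem_top g)
    · refine ⟨k, ?_⟩
      have : QuotientGroup.mk' N (x ^ p ^ k) = 1 := by rw [map_pow]; exact hk
      exact (QuotientGroup.eq_one_iff _).mp this
    · have : QuotientGroup.mk' N (g * x * g⁻¹ * x) = 1 := by
        rw [map_mul, map_mul, map_mul, map_inv, hinv, inv_mul_cancel]
      exact (QuotientGroup.eq_one_iff _).mp this
  exact (QuotientGroup.eq_one_iff x).mpr h1

end Real

end Cfsg.Agent.H57.RF
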