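import Mathlib
import Cfsg.Agent.H24.QuadLin
import Cfsg.Agent.H24.QuadMod
import Cfsg.Agent.H38.QuadDefs
import Cfsg.Agent.H38.QuadField

/-!
# A central involution from Dickson's theorem (helper57)

Variant of helper38's `natConfig_of_irreducible`: in the field case the group generated by two
quadratic elements contains an element acting as `-1` on a nonzero invariant subspace.
-/

set_option autoImplicit false
set_option linter.unusedSectionVars false
set_option linter.style.haveILetI false
set_option linter.unusedVariables false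

namespace Cfsg.Agent.H57.RF

open Polynomial Cfsg.Agent.H24.Quad Cfsg.Agent.H38

universe v w

section NegOne

variable {p : ℕ} [Fact p.Prime]

/-- The matrix `-1` of `SL₂(p)`. -/
def negOneSL (p : ℕ) [Fact p.Prime] : Matrix.SpecialLinearGroup (Fin 2) (ZMod p) :=
  ⟨!![-1, 0; 0, -1], by simp [Matrix.det_fin_two_of]⟩

theorem negOneSL_mul_self : negOneSL p * negOneSL p = 1 := by
  apply Subtype.ext
  rw [Matrix.SpecialLinearGroup.coe_mul, Matrix.SpecialLinearGroup.coe_one]
  ext i j
  fin_cases i <;> fin_cases j <;> simp [negOneSL, Matrix.mul_apply, Fin.sum_univ_two]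

theorem negOneSL_ne_one (hp2 : p ≠ 2) : negOneSL p ≠ 1 := by
  intro h
  have h1 := congrArg (fun t : Matrix.SpecialLinearGroup (Fin 2) (ZMod p) => t.1 0 0) h
  simp [negOneSL] at h1
  have h2 : ((2 : ℕ) : ZMod p) = 0 := by
    have : (2 : ZMod p) = 0 := by linear_combination (-1 : ZMod p) * h1
    exact_mod_cast this
  rw [ZMod.natCast_eq_zero_iff] at h2
  exact hp2 ((Nat.prime_dvd_prime_iff_eq (Fact.out : p.Prime) Nat.prime_two).1 h2)

/-- An involution of `SL₂(K)`, `char K ≠ 2`, different from `1` acts as `-1`. -/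
theorem sl2_involution_mulVec {K : Type*} [Field K] (h2 : (2 : K) ≠ 0)
    (z : Matrix.SpecialLinearGroup (Fin 2) K) (hz : z * z = 1) (hz1 : z ≠ 1) (v : Fin 2 → K) :
    z.1.mulVec v = -v := by
  have hdet : z.1 0 0 * z.1 1 1 - z.1 0 1 * z.1 1 0 = 1 := by
    have := z.2
    rw [Matrix.det_fin_two] at this
    exact this
  have hmm : z.1 * z.1 = 1 := by
    have := congrArg (fun t : Matrix.SpecialLinearGroup (Fin 2) K => t.1) hz
    simpa using this
  have e00 : z.1 0 0 * z.1 0 0 + z.1 0 1 * z.1 1 0 = 1 := by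
    have := congrFun (congrFun hmm 0) 0
    simpa [Matrix.mul_apply, Fin.sum_univ_two] using this
  have e01 : z.1 0 0 * z.1 0 1 + z.1 0 1 * z.1 1 1 = 0 := by
    have := congrFun (congrFun hmm 0) 1
    simpa [Matrix.mul_apply, Fin.sum_univ_two] using this
  have e10 : z.1 1 0 * z.1 0 0 + z.1 1 1 * z.1 1 0 = 0 := by
    have := congrFun (congrFun hmm 1) 0
    simpa [Matrix.mul_apply, Fin.sum_univ_two] using this
  have e11 : z.1 1 0 * z.1 0 1 + z.1 1 1 * z.1 1 1 = 1 := by
    have := congrFun (congrFun hmm 1) 1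
    simpa [Matrix.mul_apply, Fin.sum_univ_two] using this
  set a := z.1 0 0 with ha
  set b := z.1 0 1 with hb
  set c := z.1 1 0 with hc
  set d := z.1 1 1 with hd
  have hs1 : a * (a + d) = 2 := by linear_combination e00 + hdet
  have hs2 : d * (a + d) = 2 := by linear_combination e11 + hdet
  have hs0 : a + d ≠ 0 := by
    intro h0
    rw [h0, mul_zero] at hs1
    exact h2 hs1.symm
  have hb0 : b = 0 := by
    have : b * (a + d) = 0 := by linear_combination e01
    exact (mul_eq_zero.mp this).resolve_right hs0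
  have hc0 : c = 0 := by
    have : c * (a + d) = 0 := by linear_combination e10
    exact (mul_eq_zero.mp this).resolve_right hs0
  have had : a = d := by
    have : (a - d) * (a + d) = 0 := by linear_combination hs1 - hs2
    have := (mul_eq_zero.mp this).resolve_right hs0
    linear_combination this
  have haa : a * a = 1 := by
    rw [hb0, zero_mul, add_zero] at e00
    exact e00
  have ha1 : a = -1 := by
    rcases mul_self_eq_one_iff.mp haa with h | h
    · exfalso
      apply hz1
      apply Subtype.ext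
      rw [Matrix.SpecialLinearGroup.coe_one]
      ext i j
      fin_cases i <;> fin_cases j
      · simpa [ha] using h
      · simpa [hb] using hb0
      · simpa [hc] using hc0
      · simpa [hd] using (had ▸ h : d = 1)
    · exact h
  have hd1 : d = -1 := by rw [← had]; exact ha1
  funext i
  fin_cases i
  · simp [Matrix.mulVec, dotProduct, Fin.sum_univ_two, ← ha, ← hb, ha1, hb0]
  · simp [Matrix.mulVec, dotProduct, Fin.sum_univ_two, ← hc, ← hd, hd1, hc0]

/-- In the field case, some group element acts as `-1` on a nonzero subspace invariant under the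
two quadratic generators. -/
theorem exists_negOne (hD : DicksonHyp p) (hp2 : p ≠ 2)
    {W : Type v} [AddCommGroup W] [Module (ZMod p) W] [Nontrivial W]
    {Γ : Type w} [Group Γ] (x y : Γ) (ρ : Γ →* Module.End (ZMod p) W)
    (hx : (ρ x - 1) ^ 2 = 0) (hy : (ρ y - 1) ^ 2 = 0)
    (f : (ZMod p)[X]) (hf : Irreducible f) (hfX : ¬ X ∣ f)
    (hft : aeval ((ρ x - 1) * (ρ y - 1) + (ρ y - 1) * (ρ x - 1)) f = 0) :
    ∃ (g : Γ) (J : Submodule (ZMod p) W), J ≠ ⊥ ∧ (∀ w ∈ J, ρ x w ∈ J) ∧ (∀ w ∈ J, ρ y w ∈ J) ∧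
      ∀ w ∈ J, ρ g w = -w := by
  classical
  haveI : Fact (Irreducible f) := ⟨hf⟩
  obtain ⟨α, hα⟩ : ∃ α, α = ρ x - 1 := ⟨_, rfl⟩
  obtain ⟨β, hβ⟩ : ∃ β, β = ρ y - 1 := ⟨_, rfl⟩
  rw [← hα] at hx
  rw [← hβ] at hy
  rw [← hα, ← hβ] at hft
  obtain ⟨t, ht⟩ : ∃ t, t = α * β + β * α := ⟨_, rfl⟩
  rw [← ht] at hft
  have hρx : ρ x = 1 + α := by rw [hα]; abel
  have hρy : ρ y = 1 + β := by rw [hβ]; abel
  have hαα : α * α = 0 := by rw [← sq]; exact hx
  have hββ : β * β = 0 := by rw [← sq]; exact hy
  have hαt : Commute α t := by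
    show α * t = t * α
    rw [ht, mul_add, add_mul, ← mul_assoc α α β, hαα, zero_mul, zero_add, mul_assoc β α α, hαα,
      mul_zero, add_zero, mul_assoc]
  have hβt : Commute β t := by
    show β * t = t * β
    rw [ht, mul_add, add_mul, ← mul_assoc β β α, hββ, zero_mul, add_zero, mul_assoc α β β, hββ,
      mul_zero, zero_add, mul_assoc]
  -- the field
  haveI : Finite (AdjoinRoot f) := by
    haveI : Module.Finite (ZMod p) (AdjoinRoot f) :=
      PowerBasis.finite (AdjoinRoot.powerBasis hf.ne_zero)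
    exact Module.finite_of_finite (ZMod p)
  letI : Fintype (AdjoinRoot f) := Fintype.ofFinite _
  haveI : CharP (AdjoinRoot f) p :=
    charP_of_injective_algebraMap (algebraMap (ZMod p) (AdjoinRoot f)).injective p
  obtain ⟨ev, hev⟩ : ∃ ev : AdjoinRoot f →+* Module.End (ZMod p) W, ev = evHom f t hft := ⟨_, rfl⟩
  have hevα : ∀ (c : AdjoinRoot f) (w : W), α (ev c w) = ev c (α w) := by
    intro c w
    have := evHom_commute f t hft α hαt c
    rw [← hev] at this
    exact congrArg (fun T : Module.End (ZMod p) W => T w) this.eq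
  have hevβ : ∀ (c : AdjoinRoot f) (w : W), β (ev c w) = ev c (β w) := by
    intro c w
    have := evHom_commute f t hft β hβt c
    rw [← hev] at this
    exact congrArg (fun T : Module.End (ZMod p) W => T w) this.eq
  obtain ⟨τ, hτdef⟩ : ∃ τ : AdjoinRoot f, τ = AdjoinRoot.root f := ⟨_, rfl⟩
  have hevτ : ev τ = t := by rw [hev, hτdef, evHom_root]
  have hτ : τ ≠ 0 := by
    intro h0
    rw [hτdef, ← AdjoinRoot.mk_X, AdjoinRoot.mk_eq_zero] at h0
    exact hfX (hf.dvd_symm irreducible_X h0)
  have hevmul : ∀ (c d : AdjoinRoot f) (w : W), ev c (ev d w) = ev (c * d) w := by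
    intro c d w; rw [map_mul]; rfl
  have hevinj : ∀ (c : AdjoinRoot f) (w : W), w ≠ 0 → ev c w = 0 → c = 0 := by
    intro c w hw h
    by_contra hc
    apply hw
    have h1 : ev c⁻¹ (ev c w) = w := by
      rw [hevmul, inv_mul_cancel₀ hc, map_one]; rfl
    rw [← h1, h, map_zero]
  -- the vectors
  obtain ⟨e₁, he₁, hxe₁⟩ := exists_fixed_of_sq_zero (K := ZMod p) (f := ρ x) (by rw [hρx]; simpa using hx)
  have hαe₁ : α e₁ = 0 := by
    rw [hα, LinearMap.sub_apply, hxe₁, Module.End.one_apply, sub_self]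
  have hββe : ∀ w, β (β w) = 0 := fun w => by
    have := congrArg (fun T : Module.End (ZMod p) W => T w) hββ
    simpa using this
  have hαβe₁ : α (β e₁) = ev τ e₁ := by
    rw [hevτ, ht, LinearMap.add_apply, Module.End.mul_apply, Module.End.mul_apply, hαe₁, map_zero,
      add_zero]
  obtain ⟨j, hj⟩ : ∃ j : (Fin 2 → AdjoinRoot f) → W, ∀ v, j v = ev (v 0) e₁ + ev (v 1) (β e₁) :=
    ⟨_, fun _ => rfl⟩
  have hjadd : ∀ v w, j (v + w) = j v + j w := by
    intro v w
    rw [hj, hj, hj, Pi.add_apply, Pi.add_apply, map_add, map_add, LinearMap.add_apply,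
      LinearMap.add_apply]
    abel
  have hjα : ∀ v, α (j v) = ev (v 1 * τ) e₁ := by
    intro v
    rw [hj, map_add, hevα, hevα, hαe₁, map_zero, zero_add, hαβe₁, hevmul]
  have hjβ : ∀ v, β (j v) = ev (v 0) (β e₁) := by
    intro v
    rw [hj, map_add, hevβ, hevβ, hββe, map_zero, add_zero]
  have hjinj : ∀ v, j v = 0 → v = 0 := by
    intro v hv
    have h1 : v 1 = 0 := by
      have h2 := hjα v
      rw [hv, map_zero] at h2
      have h3 := hevinj _ e₁ he₁ h2.symm
      exact (mul_eq_zero.mp h3).resolve_right hτ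
    have h0 : v 0 = 0 := by
      have h2 := hj v
      rw [hv, h1, map_zero, LinearMap.zero_apply, add_zero] at h2
      exact hevinj _ e₁ he₁ h2.symm
    funext i
    fin_cases i
    · exact h0
    · exact h1
  have hjx : ∀ v, ρ x (j v) = j ((slU τ).1.mulVec v) := by
    intro v
    have e0 : ((slU τ).1.mulVec v) 0 = v 0 + τ * v 1 := by
      simp [slU, Matrix.mulVec, dotProduct, Fin.sum_univ_two]
    have e1 : ((slU τ).1.mulVec v) 1 = v 1 := by
      simp [slU, Matrix.mulVec, dotProduct, Fin.sum_univ_two]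
    rw [hρx, LinearMap.add_apply, Module.End.one_apply, hjα, hj ((slU τ).1.mulVec v), e0, e1, hj,
      map_add, LinearMap.add_apply, mul_comm τ]
    abel
  have hjy : ∀ v, ρ y (j v) = j ((slB (AdjoinRoot f)).1.mulVec v) := by
    intro v
    have e0 : ((slB (AdjoinRoot f)).1.mulVec v) 0 = v 0 := by
      simp [slB, Matrix.mulVec, dotProduct, Fin.sum_univ_two]
    have e1 : ((slB (AdjoinRoot f)).1.mulVec v) 1 = v 0 + v 1 := by
      simp [slB, Matrix.mulVec, dotProduct, Fin.sum_univ_two]
    rw [hρy, LinearMap.add_apply, Module.End.one_apply, hjβ, hj ((slB (AdjoinRoot f)).1.mulVec v),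
      e0, e1, hj, map_add, LinearMap.add_apply]
    abel
  -- the group generated by the two matrices lifts to `Γ`
  have hlift : ∀ M ∈ Subgroup.closure ({slU τ, slB (AdjoinRoot f)} :
      Set (Matrix.SpecialLinearGroup (Fin 2) (AdjoinRoot f))),
      ∃ g : Γ, ∀ v, ρ g (j v) = j (M.1.mulVec v) := by
    intro M hM
    induction hM using Subgroup.closure_induction with
    | mem z hz =>
      rcases hz with rfl | hz
      · exact ⟨x, hjx⟩
      · rw [Set.mem_singleton_iff.mp hz]; exact ⟨y, hjy⟩
    | one =>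
      refine ⟨1, fun v => ?_⟩
      rw [map_one, Module.End.one_apply, Matrix.SpecialLinearGroup.coe_one, Matrix.one_mulVec]
    | mul a b _ _ ha hb =>
      obtain ⟨g, hg⟩ := ha
      obtain ⟨h, hh⟩ := hb
      refine ⟨g * h, fun v => ?_⟩
      rw [map_mul, Module.End.mul_apply, hh, hg, Matrix.SpecialLinearGroup.coe_mul,
        Matrix.mulVec_mulVec]
    | inv a _ ha =>
      obtain ⟨g, hg⟩ := ha
      refine ⟨g⁻¹, fun v => ?_⟩
      have h1 : a.1.mulVec ((a⁻¹).1.mulVec v) = v := by
        rw [Matrix.mulVec_mulVec, ← Matrix.SpecialLinearGroup.coe_mul, mul_inv_cancel,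
          Matrix.SpecialLinearGroup.coe_one, Matrix.one_mulVec]
      have h2 := hg ((a⁻¹).1.mulVec v)
      rw [h1] at h2
      rw [← h2, ← Module.End.mul_apply, ← map_mul, inv_mul_cancel, map_one, Module.End.one_apply]
  -- Dickson
  obtain ⟨M₀, hM₀, ⟨φ⟩⟩ := hD (AdjoinRoot f) _ (one_lt_card_sylow_closure (p := p) τ hτ)
  have h2K : (2 : AdjoinRoot f) ≠ 0 := by
    intro h
    have h' : ((2 : ℕ) : AdjoinRoot f) = 0 := by exact_mod_cast h
    rw [CharP.cast_eq_zero_iff (AdjoinRoot f) p] at h'
    exact hp2 ((Nat.prime_dvd_prime_iff_eq (Fact.out : p.Prime) Nat.prime_two).1 h')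
  obtain ⟨z, hz⟩ : ∃ z : M₀, z = φ.symm (negOneSL p) := ⟨_, rfl⟩
  have hzz : z * z = 1 := by
    rw [hz, ← map_mul, negOneSL_mul_self, map_one]
  have hz1 : z ≠ 1 := by
    intro h
    rw [hz] at h
    have h3 : φ.symm (negOneSL p) = φ.symm 1 := by rw [h, map_one]
    exact negOneSL_ne_one hp2 (φ.symm.injective h3)
  have hzz' : (z : Matrix.SpecialLinearGroup (Fin 2) (AdjoinRoot f)) * z = 1 := by
    have := congrArg (fun t : M₀ => (t : Matrix.SpecialLinearGroup (Fin 2) (AdjoinRoot f))) hzz
    simpa using this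
  have hz1' : (z : Matrix.SpecialLinearGroup (Fin 2) (AdjoinRoot f)) ≠ 1 := by
    intro h
    exact hz1 (Subtype.ext h)
  obtain ⟨g, hg⟩ := hlift z (hM₀ z.2)
  have hj0 : j 0 = 0 := by
    have := hjadd 0 0
    rw [add_zero] at this
    exact (add_eq_left.mp this.symm)
  have hjneg : ∀ v, j (-v) = -(j v) := by
    intro v
    have := hjadd (-v) v
    rw [neg_add_cancel, hj0] at this
    exact eq_neg_of_add_eq_zero_left this.symm
  have hgj : ∀ v, ρ g (j v) = -(j v) := by
    intro v
    rw [hg, sl2_involution_mulVec h2K _ hzz' hz1' v, hjneg]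
  refine ⟨g, Submodule.span (ZMod p) (Set.range j), ?_, ?_, ?_, ?_⟩
  · intro hbot
    have hv : (fun i : Fin 2 => (1 : AdjoinRoot f)) ≠ 0 := by
      intro h
      have := congrFun h 0
      simp at this
    apply hv
    apply hjinj
    have h1 : j (fun i : Fin 2 => (1 : AdjoinRoot f)) ∈ Submodule.span (ZMod p) (Set.range j) :=
      Submodule.subset_span ⟨_, rfl⟩
    rw [hbot, Submodule.mem_bot] at h1
    exact h1
  · intro w hw
    induction hw using Submodule.span_induction with
    | mem w hw =>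
      obtain ⟨v, rfl⟩ := hw
      rw [hjx]
      exact Submodule.subset_span ⟨_, rfl⟩
    | zero => rw [map_zero]; exact Submodule.zero_mem _
    | add a b _ _ ha hb => rw [map_add]; exact Submodule.add_mem _ ha hb
    | smul c a _ ha => rw [map_smul]; exact Submodule.smul_mem _ c ha
  · intro w hw
    induction hw using Submodule.span_induction with
    | mem w hw =>
      obtain ⟨v, rfl⟩ := hw
      rw [hjy]
      exact Submodule.subset_span ⟨_, rfl⟩
    | zero => rw [map_zero]; exact Submodule.zero_mem _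
    | add a b _ _ ha hb => rw [map_add]; exact Submodule.add_mem _ ha hb
    | smul c a _ ha => rw [map_smul]; exact Submodule.smul_mem _ c ha
  · intro w hw
    induction hw using Submodule.span_induction with
    | mem w hw =>
      obtain ⟨v, rfl⟩ := hw
      exact hgj v
    | zero => rw [map_zero, neg_zero]
    | add a b _ _ ha hb => rw [map_add, ha, hb, neg_add]
    | smul c a _ ha => rw [map_smul, ha, smul_neg]

end NegOne

end Cfsg.Agent.H57.RF
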