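import Mathlib
import Cfsg.Agent.H58.KUDefs
import Cfsg.Agent.S1418
import Cfsg.Agent.S1419

set_option autoImplicit false
set_option linter.unusedVariables false
set_option linter.style.haveILetI false

/-!
# Piece Z-B (helper57, for helper58's sub-project (Z) of S1353 / S1354)
-/

namespace Cfsg.Agent.H57.KU

open Cfsg Subgroup Cfsg.Agent.H76.NCKill Cfsg.Agent.H58.KU

universe u

theorem zB {G : Type u} [Group G] [Finite G] : StZB G := by
  intro hG M E A P r p _ h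
  have hr : r.Prime := Fact.out
  have hp : p.Prime := h.tau1.1
  have hrp : r ≠ p := by
    intro h0
    have h1 : ¬ PRankLE r 1 M := h.tau2.2.2.2
    have h2 : PRankLE p 1 M := h.tau1.2.2.2.2
    rw [h0] at h1
    exact h1 h2
  have h18 := (Cfsg.Agent.S1418.result hG M h.coatom E h.compl r h.tau2 A
    ⟨h.AE, h.Ael, h.Acard⟩).1.1
  have hA0card : Nat.card (A0 M A) = r :=
    (Cfsg.Agent.S1419.result hG M h.coatom E h.compl r h.tau2 h.nonab A
      ⟨h.AE, h.Ael, h.Acard⟩).2.1.1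
  have hAcomm : ∀ x ∈ A, ∀ z ∈ A, x * z = z * x := by
    intro x hx z hz
    haveI := h.Ael.1
    exact congrArg Subtype.val (mul_comm' (⟨x, hx⟩ : A) ⟨z, hz⟩)
  have hAexp : ∀ x ∈ A, x ^ r = 1 := h.Ael.2
  -- generators of `P`
  have hgenP : ∀ g ∈ P, g ≠ 1 → ∀ x ∈ P, ∃ k : ℤ, g ^ k = x := by
    intro g hg hg1
    have hog : orderOf g = p := by
      have h1 : orderOf g ∣ p := by
        rw [← h.Pcard]
        have h2 := orderOf_dvd_natCard (⟨g, hg⟩ : P)
        rwa [Subgroup.orderOf_mk] at h2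
      rcases (Nat.dvd_prime hp).mp h1 with h2 | h2
      · exact absurd (orderOf_eq_one_iff.mp h2) hg1
      · exact h2
    have h1 : zpowers g = P := by
      apply Subgroup.eq_of_le_of_card_ge (Subgroup.zpowers_le.mpr hg)
      rw [Nat.card_zpowers, hog, h.Pcard]
    intro x hx
    rw [← h1] at hx
    exact Subgroup.mem_zpowers_iff.mp hx
  have hPne : ∃ y ∈ P, y ≠ 1 := by
    by_contra hcon
    push_neg at hcon
    have h0 : P = ⊥ := (Subgroup.eq_bot_iff_forall P).mpr hcon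
    have h1 := h.Pcard
    rw [h0, Subgroup.card_bot] at h1
    exact hp.one_lt.ne' h1.symm
  obtain ⟨y, hyP, hy1⟩ := hPne
  have hyp : y ^ p = 1 := by
    have h1 : orderOf y ∣ p := by
      rw [← h.Pcard]
      have h2 := orderOf_dvd_natCard (⟨y, hyP⟩ : P)
      rwa [Subgroup.orderOf_mk] at h2
    exact orderOf_dvd_iff_pow_eq_one.mp h1
  have hyE : y ∈ E := h.PE hyP
  have hyN : ∀ x ∈ A, y * x * y⁻¹ ∈ A := fun x hx =>
    (Subgroup.mem_normalizer_iff.mp (h18 hyE) x).mp hx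
  -- an element of `A` not centralized by `y`
  have hexa : ∃ a ∈ A, y * a ≠ a * y := by
    by_contra hcon
    push_neg at hcon
    apply h.PA
    intro g hg
    rw [Subgroup.mem_centralizer_iff]
    intro a ha
    obtain ⟨k, rfl⟩ := hgenP y hyP hy1 g hg
    have hc : Commute a y := (hcon a ha).symm
    exact (hc.zpow_right k).eq
  obtain ⟨a, haA, hya⟩ := hexa
  obtain ⟨b, hbdef⟩ : ∃ b : G, b = y * a * y⁻¹ * a⁻¹ := ⟨_, rfl⟩
  have hbA : b ∈ A := by rw [hbdef]; exact A.mul_mem (hyN a haA) (A.inv_mem haA)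
  have hb1 : b ≠ 1 := by
    intro h0
    apply hya
    rw [hbdef] at h0
    calc y * a = (y * a * y⁻¹ * a⁻¹) * a * y := by group
      _ = a * y := by rw [h0, one_mul]
  have hbo : orderOf b = r := by
    have h1 : orderOf b ∣ r := orderOf_dvd_of_pow_eq_one (hAexp b hbA)
    rcases (Nat.dvd_prime hr).mp h1 with h2 | h2
    · exact absurd (orderOf_eq_one_iff.mp h2) hb1
    · exact h2
  have hyab : y * a * y⁻¹ = b * a := by rw [hbdef]; group
  -- `y` does not commute with `b`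
  have hyb : y * b ≠ b * y := by
    intro hcomm
    have hc : Commute y b := hcomm
    have hind : ∀ j : ℕ, y ^ j * a * (y ^ j)⁻¹ = b ^ j * a := by
      intro j
      induction j with
      | zero => simp
      | succ j ih =>
        have h1 : y * b ^ j * y⁻¹ = b ^ j := by
          have h2 : y * b ^ j = b ^ j * y := (hc.pow_right j).eq
          rw [h2]; group
        calc y ^ (j + 1) * a * (y ^ (j + 1))⁻¹ = y * (y ^ j * a * (y ^ j)⁻¹) * y⁻¹ := by
              rw [pow_succ']; group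
          _ = y * (b ^ j * a) * y⁻¹ := by rw [ih]
          _ = (y * b ^ j * y⁻¹) * (y * a * y⁻¹) := by group
          _ = b ^ j * (b * a) := by rw [h1, hyab]
          _ = b ^ (j + 1) * a := by rw [pow_succ]; group
    have h1 := hind p
    rw [hyp] at h1
    have h2 : b ^ p = 1 := by
      have h3 : (1 : G) * a * (1 : G)⁻¹ = a := by group
      rw [h3] at h1
      calc b ^ p = b ^ p * a * a⁻¹ := by group
        _ = a * a⁻¹ := by rw [← h1]
        _ = 1 := by group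
    have h3 : orderOf b ∣ p := orderOf_dvd_of_pow_eq_one h2
    rw [hbo] at h3
    exact hrp ((Nat.prime_dvd_prime_iff_eq hr hp).mp h3)
  -- the hom `x ↦ [y, x]` on `A`
  have hφmul : ∀ x ∈ A, ∀ z ∈ A,
      y * (x * z) * y⁻¹ * (x * z)⁻¹ = (y * x * y⁻¹ * x⁻¹) * (y * z * y⁻¹ * z⁻¹) := by
    intro x hx z hz
    have hu : y * z * y⁻¹ * z⁻¹ ∈ A := A.mul_mem (hyN z hz) (A.inv_mem hz)
    have hc : y * z * y⁻¹ * z⁻¹ * x⁻¹ = x⁻¹ * (y * z * y⁻¹ * z⁻¹) :=
      hAcomm _ hu _ (A.inv_mem hx)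
    calc y * (x * z) * y⁻¹ * (x * z)⁻¹ = y * x * y⁻¹ * (y * z * y⁻¹ * z⁻¹ * x⁻¹) := by group
      _ = y * x * y⁻¹ * (x⁻¹ * (y * z * y⁻¹ * z⁻¹)) := by rw [hc]
      _ = (y * x * y⁻¹ * x⁻¹) * (y * z * y⁻¹ * z⁻¹) := by group
  let S : Subgroup G :=
    { carrier := {x | x ∈ A ∧ y * x * y⁻¹ * x⁻¹ ∈ zpowers b}
      mul_mem' := by
        rintro x z ⟨hx, hx2⟩ ⟨hz, hz2⟩
        refine ⟨A.mul_mem hx hz, ?_⟩
        rw [hφmul x hx z hz]
        exact (zpowers b).mul_mem hx2 hz2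
      one_mem' := by
        refine ⟨A.one_mem, ?_⟩
        have h1 : y * 1 * y⁻¹ * (1 : G)⁻¹ = 1 := by group
        rw [h1]; exact (zpowers b).one_mem
      inv_mem' := by
        rintro x ⟨hx, hx2⟩
        refine ⟨A.inv_mem hx, ?_⟩
        have h1 := hφmul x hx x⁻¹ (A.inv_mem hx)
        have h2 : y * (x * x⁻¹) * y⁻¹ * (x * x⁻¹)⁻¹ = 1 := by group
        rw [h2] at h1
        have h3 : y * x⁻¹ * y⁻¹ * x⁻¹⁻¹ = (y * x * y⁻¹ * x⁻¹)⁻¹ :=
          eq_inv_of_mul_eq_one_right h1.symm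
        rw [h3]
        exact (zpowers b).inv_mem hx2 }
  have hSmem : ∀ x, x ∈ S ↔ x ∈ A ∧ y * x * y⁻¹ * x⁻¹ ∈ zpowers b := fun x => Iff.rfl
  have hSA : S ≤ A := fun x hx => ((hSmem x).mp hx).1
  obtain ⟨K, hKdef⟩ : ∃ K : Subgroup G, K = A ⊓ centralizer ({y} : Set G) := ⟨_, rfl⟩
  have hKmem : ∀ x, x ∈ K ↔ x ∈ A ∧ y * x = x * y := by
    intro x
    rw [hKdef, Subgroup.mem_inf, Subgroup.mem_centralizer_iff]
    simp only [Set.mem_singleton_iff, forall_eq]
  have hA0K : A0 M A ≤ K := by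
    intro x hx
    rw [hKmem]
    refine ⟨(inf_le_left : A0 M A ≤ A) hx, ?_⟩
    exact (Subgroup.mem_centralizer_iff.mp (h.PA0 hyP) x hx).symm
  have hKS : K ≤ S := by
    intro x hx
    obtain ⟨hxA, hxy⟩ := (hKmem x).mp hx
    rw [hSmem]
    refine ⟨hxA, ?_⟩
    have h1 : y * x * y⁻¹ * x⁻¹ = 1 := by rw [hxy]; group
    rw [h1]; exact (zpowers b).one_mem
  have haS : a ∈ S := by
    rw [hSmem]
    refine ⟨haA, ?_⟩
    rw [← hbdef]; exact Subgroup.mem_zpowers b
  have haK : a ∉ K := fun h0 => hya ((hKmem a).mp h0).2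
  have hSeq : S = A := by
    apply Subgroup.eq_of_le_of_card_ge hSA
    have h1 : Nat.card K < Nat.card S := by
      by_contra hcon
      have h2 : K = S := Subgroup.eq_of_le_of_card_ge hKS (not_lt.mp hcon)
      exact haK (h2 ▸ haS)
    have h2 : r ≤ Nat.card K := by
      rw [← hA0card]; exact Subgroup.card_le_of_le hA0K
    have h3 : Nat.card S ∣ r ^ 2 := by
      rw [← h.Acard]; exact Subgroup.card_dvd_of_le hSA
    obtain ⟨j, hj, hj2⟩ := (Nat.dvd_prime_pow hr).mp h3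
    have hj3 : j = 2 := by
      by_contra hcon
      have h4 : r ^ j ≤ r ^ 1 := Nat.pow_le_pow_right hr.pos (by omega)
      rw [pow_one] at h4
      omega
    rw [h.Acard, hj2, hj3]
  -- normalization
  have hfwd : ∀ e ∈ E, (∀ g ∈ P, e * g = g * e) → ∀ x ∈ zpowers b, e * x * e⁻¹ ∈ zpowers b := by
    intro e heE hcomm x hx
    obtain ⟨k, rfl⟩ := Subgroup.mem_zpowers_iff.mp hx
    have hey : e * y = y * e := hcomm y hyP
    have ha' : e * a * e⁻¹ ∈ A := (Subgroup.mem_normalizer_iff.mp (h18 heE) a).mp haA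
    have h1 : e * b * e⁻¹ = y * (e * a * e⁻¹) * y⁻¹ * (e * a * e⁻¹)⁻¹ := by
      rw [hbdef]
      calc e * (y * a * y⁻¹ * a⁻¹) * e⁻¹ = (e * y) * a * (e * y)⁻¹ * (e * a⁻¹ * e⁻¹) := by group
        _ = (y * e) * a * (y * e)⁻¹ * (e * a⁻¹ * e⁻¹) := by rw [hey]
        _ = y * (e * a * e⁻¹) * y⁻¹ * (e * a * e⁻¹)⁻¹ := by group
    have h2 : e * b * e⁻¹ ∈ zpowers b := by
      rw [h1]
      have h3 : e * a * e⁻¹ ∈ S := by rw [hSeq]; exact ha'
      exact ((hSmem _).mp h3).2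
    have h3 : e * b ^ k * e⁻¹ = (e * b * e⁻¹) ^ k := (conj_zpow).symm
    rw [h3]
    exact (zpowers b).zpow_mem h2 k
  refine ⟨b, hbA, hbo, ?_, ?_, ?_⟩
  · intro h0
    have h1 : b ∈ A0 M A := by rw [← h0]; exact Subgroup.mem_zpowers b
    exact hyb (Subgroup.mem_centralizer_iff.mp (h.PA0 hyP) b h1).symm
  · intro e heE hcomm
    rw [Subgroup.mem_normalizer_iff]
    intro x
    constructor
    · exact hfwd e heE hcomm x
    · intro hx
      have hcomm' : ∀ g ∈ P, e⁻¹ * g = g * e⁻¹ := by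
        intro g hg
        have h1 := hcomm g hg
        calc e⁻¹ * g = e⁻¹ * (g * e) * e⁻¹ := by group
          _ = e⁻¹ * (e * g) * e⁻¹ := by rw [h1]
          _ = g * e⁻¹ := by group
      have h1 := hfwd e⁻¹ (E.inv_mem heE) hcomm' _ hx
      have h2 : e⁻¹ * (e * x * e⁻¹) * e⁻¹⁻¹ = x := by group
      rwa [h2] at h1
  · intro g hg hgb
    by_contra hg1
    obtain ⟨k, hk⟩ := hgenP g hg hg1 y hyP
    apply hyb
    rw [← hk]
    have hc : Commute g b := hgb
    exact (hc.zpow_left k).eq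

example {G : Type u} [Group G] [Finite G] : Cfsg.Agent.H58.KU.StZB G := zB

end Cfsg.Agent.H57.KU
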