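import Mathlib
import Cfsg.Agent.H58.KUDefs
import Cfsg.Agent.S1418
import Cfsg.Agent.H57.BG126

set_option autoImplicit false
set_option linter.unusedVariables false

/-!
# Piece Z-NORM (helper57, for helper58's sub-project (Z) of S1353 / S1354)
-/

namespace Cfsg.Agent.H57.KU

open Cfsg Subgroup Cfsg.Agent.H76.NCKill Cfsg.Agent.H58.KU

universe u

theorem zNorm {G : Type u} [Group G] [Finite G] : StZNorm G := by
  intro hG M E A P r p _ h
  have hEM : E ≤ M := h.compl.1
  have h18 := (Cfsg.Agent.S1418.result hG M h.coatom E h.compl r h.tau2 A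
    ⟨h.AE, h.Ael, h.Acard⟩).1.1
  have hconj : ∀ e ∈ E, ∀ x ∈ A0 M A, e * x * e⁻¹ ∈ A0 M A := by
    intro e he x hx
    have hxA : x ∈ A := (inf_le_left : A0 M A ≤ A) hx
    have hxC : x ∈ centralizer (sigmaCore M : Set G) :=
      (inf_le_right : A0 M A ≤ centralizer (sigmaCore M : Set G)) hx
    refine ⟨(Subgroup.mem_normalizer_iff.mp (h18 he) x).mp hxA, ?_⟩
    show e * x * e⁻¹ ∈ centralizer (sigmaCore M : Set G)
    rw [Subgroup.mem_centralizer_iff]
    intro y hy
    have heN := Cfsg.Agent.H57.BG12.le_normalizer_sigmaCore M (hEM he)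
    have hy' : e⁻¹ * y * e ∈ sigmaCore M := by
      have h1 := (Subgroup.mem_normalizer_iff.mp
        ((normalizer (sigmaCore M : Set G)).inv_mem heN) y).mp hy
      rwa [inv_inv] at h1
    have h1 : e⁻¹ * y * e * x = x * (e⁻¹ * y * e) :=
      Subgroup.mem_centralizer_iff.mp hxC _ hy'
    calc y * (e * x * e⁻¹) = e * (e⁻¹ * y * e * x) * e⁻¹ := by group
      _ = e * (x * (e⁻¹ * y * e)) * e⁻¹ := by rw [h1]
      _ = e * x * e⁻¹ * y := by group
  intro e he
  rw [Subgroup.mem_normalizer_iff]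
  intro x
  constructor
  · exact hconj e he x
  · intro hx
    have h1 := hconj e⁻¹ (E.inv_mem he) _ hx
    have h2 : e⁻¹ * (e * x * e⁻¹) * e⁻¹⁻¹ = x := by group
    rwa [h2] at h1

example {G : Type u} [Group G] [Finite G] : Cfsg.Agent.H58.KU.StZNorm G := zNorm

end Cfsg.Agent.H57.KU
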