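import Mathlib
import Cfsg.Agent.H58.KUDefs
import Cfsg.Agent.S1417
import Cfsg.Agent.S1419
import Cfsg.Agent.H57.BG126

set_option autoImplicit false
set_option linter.unusedVariables false
set_option linter.style.haveILetI false

/-!
# Piece Z-ORD (helper57, for helper58's sub-project (Z) of S1353 / S1354)
-/

namespace Cfsg.Agent.H57.KU

open Cfsg Subgroup Cfsg.Agent.H76.NCKill Cfsg.Agent.H58.KU

universe u

theorem zOrd {G : Type u} [Group G] [Finite G] : StZOrd G := by
  intro hG hSub M E A P r p _ h E1 hE1 hcyc hPE1 hK b hbA hbo hbA0 hnorm hfaith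
  have hr : r.Prime := Fact.out
  have hp : p.Prime := h.tau1.1
  have hEM : E ≤ M := h.compl.1
  have hσM : sigmaCore M ≤ M := h.compl.2.1
  have hE1E : E1 ≤ E := hE1.1
  have h17 := (Cfsg.Agent.S1417.result hG M h.coatom r h.tau2 A
    ⟨h.AE.trans hEM, h.Ael, h.Acard⟩).1
  have h19 := (Cfsg.Agent.S1419.result hG M h.coatom E h.compl r h.tau2 h.nonab A
    ⟨h.AE, h.Ael, h.Acard⟩).2.2
  -- `V = Z(M_σ)`
  obtain ⟨V, hV⟩ : ∃ V : Subgroup G, V = sigmaCore M ⊓ centralizer (sigmaCore M : Set G) :=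
    ⟨_, rfl⟩
  have hVmem : ∀ v, v ∈ V ↔ v ∈ sigmaCore M ∧ ∀ x ∈ sigmaCore M, x * v = v * x := by
    intro v
    rw [hV, Subgroup.mem_inf, Subgroup.mem_centralizer_iff]
    rfl
  have hVcomm : ∀ x ∈ V, ∀ y ∈ V, x * y = y * x := by
    intro x hx y hy
    exact ((hVmem y).mp hy).2 x ((hVmem x).mp hx).1
  have hVne : V ≠ ⊥ := by
    have hσne : sigmaCore M ≠ ⊥ := by
      intro h0
      apply h.Kstar
      rw [h0, bot_inf_eq]
    haveI : Nontrivial (sigmaCore M) := (Subgroup.nontrivial_iff_ne_bot _).mpr hσne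
    haveI := h17
    have hc : center (sigmaCore M) ≠ ⊥ := Group.IsNilpotent.center_ne_bot _
    obtain ⟨⟨z, hz⟩, hz1⟩ := (Subgroup.ne_bot_iff_exists_ne_one).mp hc
    have hzV : (z : G) ∈ V := by
      rw [hVmem]
      refine ⟨z.2, fun x hx => ?_⟩
      have h1 := Subgroup.mem_center_iff.mp hz ⟨x, hx⟩
      exact congrArg Subtype.val h1
    intro h0
    rw [h0, Subgroup.mem_bot] at hzV
    apply hz1
    apply Subtype.ext
    apply Subtype.ext
    exact hzV
  have hMV : M ≤ normalizer (V : Set G) := by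
    have hconj : ∀ m ∈ M, ∀ v ∈ V, m * v * m⁻¹ ∈ V := by
      intro m hm v hv
      obtain ⟨hv1, hv2⟩ := (hVmem v).mp hv
      have hmN := Cfsg.Agent.H57.BG12.le_normalizer_sigmaCore M hm
      rw [hVmem]
      refine ⟨(Subgroup.mem_normalizer_iff.mp hmN v).mp hv1, ?_⟩
      intro x hx
      have hx' : m⁻¹ * x * m ∈ sigmaCore M := by
        have h1 := (Subgroup.mem_normalizer_iff.mp
          ((normalizer (sigmaCore M : Set G)).inv_mem hmN) x).mp hx
        rwa [inv_inv] at h1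
      have h1 := hv2 _ hx'
      calc x * (m * v * m⁻¹) = m * (m⁻¹ * x * m * v) * m⁻¹ := by group
        _ = m * (v * (m⁻¹ * x * m)) * m⁻¹ := by rw [h1]
        _ = m * v * m⁻¹ * x := by group
    intro m hm
    rw [Subgroup.mem_normalizer_iff]
    intro v
    constructor
    · exact hconj m hm v
    · intro hv
      have h1 := hconj m⁻¹ (M.inv_mem hm) _ hv
      have h2 : m⁻¹ * (m * v * m⁻¹) * m⁻¹⁻¹ = v := by group
      rwa [h2] at h1
  -- a generator of `E1`
  obtain ⟨g, hg⟩ := hcyc.exists_generator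
  obtain ⟨e, he⟩ : ∃ e : G, e = (g : G) := ⟨_, rfl⟩
  have heE1 : e ∈ E1 := by rw [he]; exact g.2
  have hgen : ∀ x ∈ E1, ∃ k : ℤ, e ^ k = x := by
    intro x hx
    obtain ⟨k, hk⟩ := Subgroup.mem_zpowers_iff.mp (hg ⟨x, hx⟩)
    refine ⟨k, ?_⟩
    have h1 := congrArg Subtype.val hk
    rw [he]; simpa using h1
  have hoe : orderOf e = Nat.card E1 := by
    rw [he, Subgroup.orderOf_coe]
    exact orderOf_eq_card_of_forall_mem_zpowers hg
  have hE1comm : ∀ x ∈ E1, ∀ y ∈ E1, x * y = y * x := by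
    intro x hx y hy
    obtain ⟨k, rfl⟩ := hgen x hx
    obtain ⟨l, rfl⟩ := hgen y hy
    exact (Commute.zpow_zpow_self e k l).eq
  -- a generator of `P`
  have hPne : ∃ y ∈ P, y ≠ 1 := by
    by_contra hcon
    push_neg at hcon
    have h0 : P = ⊥ := (Subgroup.eq_bot_iff_forall P).mpr hcon
    have h1 := h.Pcard
    rw [h0, Subgroup.card_bot] at h1
    exact hp.one_lt.ne' h1.symm
  obtain ⟨y, hyP, hy1⟩ := hPne
  have hoy : orderOf y = p := by
    have h1 : orderOf y ∣ p := by
      rw [← h.Pcard]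
      have h2 := orderOf_dvd_natCard (⟨y, hyP⟩ : P)
      rwa [Subgroup.orderOf_mk] at h2
    rcases (Nat.dvd_prime hp).mp h1 with h2 | h2
    · exact absurd (orderOf_eq_one_iff.mp h2) hy1
    · exact h2
  have hPgen : ∀ x ∈ P, ∃ k : ℤ, y ^ k = x := by
    have h1 : zpowers y = P := by
      apply Subgroup.eq_of_le_of_card_ge (Subgroup.zpowers_le.mpr hyP)
      rw [Nat.card_zpowers, hoy, h.Pcard]
    intro x hx
    rw [← h1] at hx
    exact Subgroup.mem_zpowers_iff.mp hx
  -- `b`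
  have hbE : b ∈ E := h.AE hbA
  have hbM : b ∈ M := hEM hbE
  have hbfix : ∀ v ∈ V, b * v = v * b → v = 1 := by
    intro v hv hbv
    have h1 := (h19 (zpowers b) (Subgroup.zpowers_le.mpr hbE)
      (by rw [Nat.card_zpowers, hbo]) hbA0).1
    have h2 : v ∈ sigmaCore M ⊓ centralizer ((zpowers b : Subgroup G) : Set G) := by
      refine ⟨((hVmem v).mp hv).1, ?_⟩
      show v ∈ centralizer ((zpowers b : Subgroup G) : Set G)
      rw [Subgroup.mem_centralizer_iff]
      intro z hz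
      obtain ⟨k, rfl⟩ := Subgroup.mem_zpowers_iff.mp hz
      have hc : Commute b v := hbv
      exact (hc.zpow_left k).eq
    rw [h1] at h2
    exact Subgroup.mem_bot.mp h2
  have heN : ∀ x ∈ E1, x ∈ normalizer ((zpowers b : Subgroup G) : Set G) := fun x hx =>
    hnorm x (hE1E hx) (fun g hg => hE1comm x hx g (hPE1 hg))
  have hcard1 := hSub V b e r hr inferInstance hVcomm (hMV hbM) (hMV (hEM (hE1E heE1))) hbo
    (heN e heE1) (fun i hi => hfaith (e ^ i) (E1.pow_mem heE1 i) hi) hbfix (orderOf_pos e)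
  have hcard2 := hSub V b y r hr inferInstance hVcomm (hMV hbM) (hMV (hEM (h.PE hyP))) hbo
    (heN y (hPE1 hyP)) (fun i hi => hfaith (y ^ i) (E1.pow_mem (hPE1 hyP) i) hi) hbfix
    (orderOf_pos y)
  have hEq : V ⊓ centralizer ({e} : Set G) = V ⊓ centralizer ({y} : Set G) := by
    ext v
    simp only [Subgroup.mem_inf, Subgroup.mem_centralizer_iff, Set.mem_singleton_iff, forall_eq]
    constructor
    · rintro ⟨hv, hev⟩
      refine ⟨hv, ?_⟩
      obtain ⟨k, hk⟩ := hgen y (hPE1 hyP)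
      rw [← hk]
      have hc : Commute e v := hev
      exact (hc.zpow_left k).eq
    · rintro ⟨hv, hyv⟩
      refine ⟨hv, ?_⟩
      have h1 : v ∈ sigmaCore M ⊓ centralizer (P : Set G) := by
        refine ⟨((hVmem v).mp hv).1, ?_⟩
        show v ∈ centralizer (P : Set G)
        rw [Subgroup.mem_centralizer_iff]
        intro z hz
        obtain ⟨k, rfl⟩ := hPgen z hz
        have hc : Commute y v := hyv
        exact (hc.zpow_left k).eq
      have h2 := hK h1
      exact Subgroup.mem_centralizer_iff.mp h2 e heE1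
  rw [hoy] at hcard2
  rw [hEq] at hcard1
  have hV2 : 1 < Nat.card V := (Subgroup.one_lt_card_iff_ne_bot V).mpr hVne
  obtain ⟨c, hc⟩ : ∃ c : ℕ, c = Nat.card ↥(V ⊓ centralizer ({y} : Set G)) := ⟨_, rfl⟩
  rw [← hc] at hcard1 hcard2
  have hc2 : 2 ≤ c := by
    by_contra hcon
    have hc1 : c = 1 := by
      have h0 : 0 < c := by rw [hc]; exact Nat.card_pos
      omega
    rw [hc1, one_pow] at hcard2
    omega
  have hfin : orderOf e = p :=
    Nat.pow_right_injective hc2 (show c ^ orderOf e = c ^ p from hcard1.symm.trans hcard2)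
  rw [← hoe, hfin]

example {G : Type u} [Group G] [Finite G] : Cfsg.Agent.H58.KU.StZOrd G := zOrd

end Cfsg.Agent.H57.KU
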